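import Cfsg.Agent.Lib.SchurMult.PSLThreeFour.Comm
import Cfsg.Agent.Lib.SchurMult.Criterion

/-!
The kernel of a stem extension of `PSL₃(4)` is an image of a product of cyclic groups of orders 3, 4, 4.
-/

set_option autoImplicit false
set_option linter.unusedSectionVars false
set_option linter.style.haveILetI false

namespace CfsgLib.SchurMult.PSLThreeFour

open CfsgLib.InvChar.PSLThreeFour CfsgLib.SchurMult
open scoped commutatorElement

universe u v

variable {F : Type u} [Field F] [Fintype F]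

theorem field_cases (hF : Fintype.card F = 4) {w : F} (hw : w * w = w + 1) :
    (1 + 1 : F) = 0 ∧ w ≠ 0 ∧ w ≠ 1 ∧ ∀ a : F, a = 0 ∨ a = 1 ∨ a = w ∨ a = w + 1 := by
  obtain ⟨z, -, -, -, hz, h2, hall⟩ := CfsgLib.InvChar.SymThree.four_basis hF
  have h0 : w ≠ 0 := fun h => by rw [h] at hw; simp at hw
  have h1 : w ≠ 1 := fun h => by rw [h, h2] at hw; simp at hw
  refine ⟨h2, h0, h1, fun a => ?_⟩
  rcases hall w with rfl | rfl | rfl | rfl
  · exact absurd rfl h0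
  · exact absurd rfl h1
  · exact hall a
  · rcases hall a with h | h | h | h
    · exact Or.inl h
    · exact Or.inr (Or.inl h)
    · exact Or.inr (Or.inr (Or.inr (by rw [h, add_assoc, h2, add_zero])))
    · exact Or.inr (Or.inr (Or.inl h))

namespace Lifts

variable {Γ : Type v} [Group Γ] {σ : Γ →* Matrix.ProjectiveSpecialLinearGroup (Fin 3) F} (l : Lifts σ)

/-- The first generator of the 2-part of the kernel. -/
def U₁ (w : F) : Γ := l.C 1 w * (l.C w 1)⁻¹

/-- The second generator of the 2-part of the kernel. -/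
def U₂ (w : F) : Γ := l.C 1 1 * l.C 1 w * l.C w w

theorem U₁_mem (w : F) : l.U₁ w ∈ σ.ker := by
  rw [MonoidHom.mem_ker, U₁, map_mul, map_inv, l.map_C, l.map_C, one_mul, mul_one, mul_inv_cancel]

theorem U₂_mem {w : F} (hw : w * w = w + 1) : l.U₂ w ∈ σ.ker := by
  have h2 : (1 + 1 : F) = 0 := (field_cases l.card_F hw).1
  rw [MonoidHom.mem_ker, U₂, map_mul, map_mul, l.map_C, l.map_C, l.map_C, l.map_W, l.map_W, l.map_W,
    ut_mul, ut_mul, ← ut_zero]
  congr 1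
  · simp
  · simp
  · linear_combination hw + (w + 1) * h2

theorem U₁_sq {w : F} (hw : w * w = w + 1) : l.U₁ w * l.U₁ w = l.lam 1 := by
  have h2 : (1 + 1 : F) = 0 := (field_cases l.card_F hw).1
  have hc := ((l.CC 1 w w 1).inv_right)
  rw [U₁, mul_assoc, ← mul_assoc (l.C w 1)⁻¹, ← hc.eq, mul_assoc, ← mul_assoc, l.C_mul_self,
    ← mul_inv_rev, l.C_mul_self, l.lam_inv, ← l.lam_add]
  congr 1
  linear_combination hw + w * h2

theorem U₂_sq {w : F} (hw : w * w = w + 1) : l.U₂ w * l.U₂ w = l.lam (w + 1) := by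
  have h2 : (1 + 1 : F) = 0 := (field_cases l.card_F hw).1
  rw [U₂, ((l.CC w w 1 1).mul_right (l.CC w w 1 w)).mul_mul_mul_comm,
    (l.CC 1 w 1 1).mul_mul_mul_comm, l.C_mul_self, l.C_mul_self, l.C_mul_self, ← l.lam_add, ← l.lam_add]
  congr 1
  linear_combination (w + 1) * hw + w * h2 + hw + h2

/-- The kernel elements generated by the two generators. -/
def K (w : F) : Subgroup Γ := Subgroup.closure {l.U₁ w, l.U₂ w}

theorem U₁_mem_K (w : F) : l.U₁ w ∈ l.K w := Subgroup.subset_closure (by simp)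
theorem U₂_mem_K (w : F) : l.U₂ w ∈ l.K w := Subgroup.subset_closure (by simp)

theorem lam_mem_K {w : F} (hw : w * w = w + 1) (x : F) : l.lam x ∈ l.K w := by
  have h2 : (1 + 1 : F) = 0 := (field_cases l.card_F hw).1
  have h1 : l.lam 1 ∈ l.K w := by rw [← l.U₁_sq hw]; exact mul_mem (l.U₁_mem_K w) (l.U₁_mem_K w)
  have h3 : l.lam (w + 1) ∈ l.K w := by rw [← l.U₂_sq hw]; exact mul_mem (l.U₂_mem_K w) (l.U₂_mem_K w)
  rcases (field_cases l.card_F hw).2.2.2 x with rfl | rfl | rfl | rfl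
  · rw [l.lam_zero]; exact one_mem _
  · exact h1
  · have e := mul_mem h3 h1
    rw [← l.lam_add, add_assoc, h2, add_zero] at e
    exact e
  · exact h3

/-- The subgroup generated by the four basic commutators. -/
def N (w : F) : Subgroup Γ := Subgroup.closure {l.C 1 1, l.C 1 w, l.C w 1, l.C w w}

theorem lam_mem_N {w : F} (hw : w * w = w + 1) (x : F) : l.lam x ∈ l.N w := by
  have hm : ∀ g ∈ ({l.C 1 1, l.C 1 w, l.C w 1, l.C w w} : Set Γ), g ∈ l.N w :=
    fun g hg => Subgroup.subset_closure hg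
  have hsub : l.K w ≤ l.N w := by
    rw [K, Subgroup.closure_le]
    rintro _ (rfl | rfl)
    · exact mul_mem (hm _ (by simp)) (inv_mem (hm _ (by simp)))
    · exact mul_mem (mul_mem (hm _ (by simp)) (hm _ (by simp))) (hm _ (by simp))
  exact hsub (l.lam_mem_K hw x)

theorem XW_mem_N {w : F} (hw : w * w = w + 1) (a d : F) : ⁅l.X a, l.W d⁆ ∈ l.N w := by
  rcases eq_or_ne a 0 with rfl | ha
  · rw [l.XW_zero]; exact one_mem _
  · rw [l.XW a d ha]; exact l.lam_mem_N hw _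

theorem C_mem_N {w : F} (hw : w * w = w + 1) (a b : F) : l.C a b ∈ l.N w := by
  obtain ⟨h2, -, -, hall⟩ := field_cases l.card_F hw
  have hb : ∀ a, (a = 1 ∨ a = w) → ∀ b, l.C a b ∈ l.N w := by
    intro a ha b
    have e1 : l.C a 1 ∈ l.N w := by rcases ha with rfl | rfl <;> exact Subgroup.subset_closure (by simp)
    have ew : l.C a w ∈ l.N w := by rcases ha with rfl | rfl <;> exact Subgroup.subset_closure (by simp)
    rcases hall b with rfl | rfl | rfl | rfl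
    · rw [l.C_zero_right]; exact one_mem _
    · exact e1
    · exact ew
    · rw [l.C_add_right]; exact mul_mem (mul_mem ew e1) (l.lam_mem_N hw _)
  rcases hall a with rfl | rfl | rfl | rfl
  · rw [l.C_zero_left]; exact one_mem _
  · exact hb _ (Or.inl rfl) b
  · exact hb _ (Or.inr rfl) b
  · rw [l.C_add_left]
    exact mul_mem (mul_mem (l.XW_mem_N hw _ _) (hb 1 (Or.inl rfl) b)) (hb w (Or.inr rfl) b)

/-- The lifts of the root elements. -/
def S : Set Γ := Set.range l.X ∪ Set.range l.Y ∪ Set.range l.W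

theorem U_eq : (U : Subgroup (Matrix.ProjectiveSpecialLinearGroup (Fin 3) F)) = Subgroup.closure (σ '' l.S) := by
  refine le_antisymm ?_ ((Subgroup.closure_le _).2 ?_)
  · rintro _ ⟨a, b, d, rfl⟩
    have e : (ut a b d : Matrix.ProjectiveSpecialLinearGroup (Fin 3) F) = σ (l.Y b) * σ (l.X a) * σ (l.W d) := by
      rw [l.map_X, l.map_Y, l.map_W, ut_mul, ut_mul]; simp
    rw [e]
    exact mul_mem (mul_mem (Subgroup.subset_closure ⟨_, Or.inl (Or.inr ⟨b, rfl⟩), rfl⟩)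
      (Subgroup.subset_closure ⟨_, Or.inl (Or.inl ⟨a, rfl⟩), rfl⟩))
      (Subgroup.subset_closure ⟨_, Or.inr ⟨d, rfl⟩, rfl⟩)
  · rintro _ ⟨_, (⟨x, rfl⟩ | ⟨x, rfl⟩) | ⟨x, rfl⟩, rfl⟩
    exacts [⟨x, 0, 0, l.map_X x⟩, ⟨0, x, 0, l.map_Y x⟩, ⟨0, 0, x, l.map_W x⟩]

theorem comm_mem_N {w : F} (hw : w * w = w + 1) : ∀ s ∈ l.S, ∀ t ∈ l.S, ⁅s, t⁆ ∈ l.N w := by
  have hWY : ∀ d b, ⁅l.W d, l.Y b⁆ ∈ l.N w := fun d b => by rw [l.WY]; exact l.lam_mem_N hw _
  rintro s ((⟨a, rfl⟩ | ⟨a, rfl⟩) | ⟨a, rfl⟩) t ((⟨b, rfl⟩ | ⟨b, rfl⟩) | ⟨b, rfl⟩)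
  · rw [l.XX]; exact one_mem _
  · exact l.C_mem_N hw a b
  · exact l.XW_mem_N hw a b
  · rw [← commutatorElement_inv]; exact inv_mem (l.C_mem_N hw b a)
  · rw [l.YY]; exact one_mem _
  · rw [← commutatorElement_inv]; exact inv_mem (hWY b a)
  · rw [← commutatorElement_inv]; exact inv_mem (l.XW_mem_N hw b a)
  · exact hWY a b
  · rw [l.WW]; exact one_mem _

theorem S_normalizes [Finite Γ] {w : F} (hw : w * w = w + 1) :
    ∀ s ∈ l.S, s ∈ Subgroup.normalizer (l.N w : Set Γ) := by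
  intro s hs
  have key : ∀ a b, s * l.C a b * s⁻¹ ∈ l.N w := by
    intro a b
    have e : s * l.C a b * s⁻¹ = ⁅s, l.C a b⁆ * l.C a b := by rw [commutatorElement_def]; group
    rw [e, comm_eq_of_map_eq l.central (a := s) rfl (l.map_C a b)]
    exact mul_mem (l.comm_mem_N hw s hs _ (Or.inr ⟨_, rfl⟩)) (l.C_mem_N hw a b)
  have hle : (l.N w).map (MulAut.conj s).toMonoidHom ≤ l.N w := by
    rw [N, MonoidHom.map_closure, Subgroup.closure_le]
    rintro _ ⟨g, (rfl | rfl | rfl | rfl), rfl⟩ <;> exact key _ _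
  have heq : (l.N w).map (MulAut.conj s).toMonoidHom = l.N w :=
    SetLike.coe_injective (Set.eq_of_subset_of_ncard_le hle (by
      show Nat.card (l.N w) ≤ Nat.card ((l.N w).map (MulAut.conj s).toMonoidHom)
      rw [Subgroup.card_map_of_injective
        (show Function.Injective (MulAut.conj s).toMonoidHom from (MulAut.conj s).injective)])
      (Set.toFinite _))
  rw [Subgroup.mem_normalizer_iff]
  intro y
  constructor
  · intro hy; exact heq ▸ ⟨y, hy, rfl⟩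
  · intro hy
    have hy' : s * y * s⁻¹ ∈ (l.N w).map (MulAut.conj s).toMonoidHom := heq.symm ▸ hy
    obtain ⟨z, hz, hzy⟩ := hy'
    exact (MulAut.conj s).injective hzy ▸ hz

theorem zpow_cases {w : F} (hw : w * w = w + 1) (a b : F) (n : ℤ) :
    ∃ k ∈ l.K w, l.C a b ^ n = k ∨ l.C a b ^ n = l.C a b * k := by
  have hsq : l.C a b ^ (2 : ℤ) ∈ l.K w := by
    rw [zpow_two, l.C_mul_self]; exact l.lam_mem_K hw _
  rcases Int.even_or_odd n with ⟨m, rfl⟩ | ⟨m, rfl⟩
  · exact ⟨_, zpow_mem hsq m, Or.inl (by rw [← zpow_mul, two_mul])⟩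
  · exact ⟨_, zpow_mem hsq m, Or.inr (by rw [← zpow_mul, zpow_add_one, (Commute.zpow_self _ _).eq])⟩

theorem kernel_inf_N {w : F} (hw : w * w = w + 1) {z : Γ} (hz : z ∈ l.N w) (hzk : z ∈ σ.ker) :
    z ∈ l.K w := by
  obtain ⟨h2, hw0, hw1, -⟩ := field_cases l.card_F hw
  have hKk : l.K w ≤ σ.ker := by
    rw [K, Subgroup.closure_le]
    rintro _ (rfl | rfl)
    exacts [l.U₁_mem w, l.U₂_mem hw]
  have hKc : ∀ k ∈ l.K w, ∀ g : Γ, Commute g k := fun k hk g => ker_comm l.central (hKk hk) g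
  set A := l.C 1 1 with hA
  set B := l.C 1 w with hB
  have hAB : Commute A B := l.CC _ _ _ _
  have hform : ∀ x ∈ l.N w, ∃ i j : ℤ, ∃ k ∈ l.K w, x = A ^ i * B ^ j * k := by
    intro x hx
    induction hx using Subgroup.closure_induction with
    | mem y hy =>
      rcases hy with rfl | rfl | rfl | rfl
      · exact ⟨1, 0, 1, one_mem _, by simp [hA]⟩
      · exact ⟨0, 1, 1, one_mem _, by simp [hB]⟩
      · refine ⟨0, 1, (l.U₁ w)⁻¹, inv_mem (l.U₁_mem_K w), ?_⟩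
        rw [zpow_zero, one_mul, zpow_one, (hKc _ (inv_mem (l.U₁_mem_K w)) B).eq, U₁, mul_inv_rev, inv_inv,
          inv_mul_cancel_right]
      · refine ⟨-1, -1, l.U₂ w, l.U₂_mem_K w, ?_⟩
        rw [zpow_neg_one, zpow_neg_one, ← mul_inv_rev, U₂, hAB.symm.eq, inv_mul_cancel_left]
    | one => exact ⟨0, 0, 1, one_mem _, by simp⟩
    | mul y y' _ _ hy hy' =>
      obtain ⟨i, j, k, hk, rfl⟩ := hy
      obtain ⟨i', j', k', hk', rfl⟩ := hy'
      refine ⟨i + i', j + j', k * k', mul_mem hk hk', ?_⟩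
      rw [mul_assoc (A ^ i * B ^ j) k, ← mul_assoc k, ← (hKc k hk (A ^ i' * B ^ j')).eq, mul_assoc _ k,
        ← mul_assoc, (hAB.symm.zpow_zpow j i').mul_mul_mul_comm, ← zpow_add, ← zpow_add]
    | inv y _ hy =>
      obtain ⟨i, j, k, hk, rfl⟩ := hy
      refine ⟨-i, -j, k⁻¹, inv_mem hk, ?_⟩
      rw [mul_inv_rev, ← (hKc k⁻¹ (inv_mem hk) (A ^ i * B ^ j)⁻¹).eq, (hAB.zpow_zpow i j).eq, mul_inv_rev,
        zpow_neg, zpow_neg]
  obtain ⟨i, j, k, hk, rfl⟩ := hform z hz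
  obtain ⟨k₁, hk₁, hi⟩ := l.zpow_cases hw 1 1 i
  obtain ⟨k₂, hk₂, hj⟩ := l.zpow_cases hw 1 w j
  have hs := fun x (hx : x ∈ l.K w) => MonoidHom.mem_ker.1 (hKk hx)
  rw [MonoidHom.mem_ker, map_mul, map_mul, hs k hk, mul_one] at hzk
  refine mul_mem ?_ hk
  rcases hi with hi | hi <;> rcases hj with hj | hj <;> rw [hi, hj] at hzk ⊢
  · exact mul_mem hk₁ hk₂
  · rw [hs k₁ hk₁, map_mul, hs k₂ hk₂, one_mul, mul_one, l.map_C, l.map_W, one_mul, ← ut_zero] at hzk
    exact absurd (ut_inj hzk).2.2 hw0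
  · rw [hs k₂ hk₂, map_mul, hs k₁ hk₁, mul_one, mul_one, l.map_C, l.map_W, one_mul, ← ut_zero] at hzk
    exact absurd (ut_inj hzk).2.2 one_ne_zero
  · rw [map_mul, map_mul, hs k₂ hk₂, hs k₁ hk₁, mul_one, mul_one, l.map_C, l.map_C, l.map_W, l.map_W,
      ut_mul, ← ut_zero] at hzk
    have h := (ut_inj hzk).2.2
    exact absurd (show w = 1 by linear_combination h - h2) hw1

theorem commutator_inf_ker [Finite Γ] {w : F} (hw : w * w = w + 1) {z : Γ}
    (hz : z ∈ ⁅(U : Subgroup (Matrix.ProjectiveSpecialLinearGroup (Fin 3) F)).comap σ,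
      (U : Subgroup (Matrix.ProjectiveSpecialLinearGroup (Fin 3) F)).comap σ⁆) (hzk : z ∈ σ.ker) :
    z ∈ l.K w := by
  refine l.kernel_inf_N hw ?_ hzk
  rw [l.U_eq] at hz
  exact commutator_comap_closure_le l.central l.S (l.N w) (l.S_normalizes hw) (l.comm_mem_N hw) hz

theorem U_pow_four {w : F} (hw : w * w = w + 1) : l.U₁ w ^ 4 = 1 ∧ l.U₂ w ^ 4 = 1 := by
  constructor
  · rw [show (4 : ℕ) = 2 * 2 from rfl, pow_mul, pow_two (l.U₁ w), l.U₁_sq hw, pow_two, l.lam_mul_self]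
  · rw [show (4 : ℕ) = 2 * 2 from rfl, pow_mul, pow_two (l.U₂ w), l.U₂_sq hw, pow_two, l.lam_mul_self]

end Lifts

end CfsgLib.SchurMult.PSLThreeFour
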