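import Cfsg.Agent.Lib.SchurMult.PSLThreeFour.Data

/-!
Checks on the tables of the twelvefold cover of `PSL₃(4)`: permutations, words, centre, kernel words.
-/

set_option autoImplicit false
set_option maxHeartbeats 0
set_option maxRecDepth 100000

namespace CfsgLib.SchurMult.PSLThreeFour

/-- The named tables are permutations. -/
noncomputable def permOK : Bool :=
  (List.range 12).all fun i =>
    tables.sameWord [i, 12 + i] [] && tables.sameWord [12 + i, i] [] &&
      CfsgLib.SporRecognition.CosetCert.allBelow 10 543 (fun u =>
        Nat.blt (tables.img i u) 543 && Nat.blt (tables.img (12 + i) u) 543)

theorem permOK_eq : permOK = true := by decide +kernel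

/-- The words for the named elements and the representatives. -/
noncomputable def wordOK : Bool :=
  ((List.range 12).all fun i => tables.sameWord [i] (namedWords.getD i [])) &&
    ((List.range 60).all fun j => tables.sameWord [24 + j] (repWords.getD j [])) &&
    ([11, 8, 5, 3, 6, 7].all fun i => tables.sameWord [11, i] [i, 11]) &&
    tables.sameWord (List.replicate 12 11) [] &&
    ((List.range 2).all fun c => (List.range 3).all fun t =>
      tables.sameWord ((words.getD c []).getD t []) (List.replicate ((exps.getD c []).getD t 0) 11))

theorem wordOK_eq : wordOK = true := by decide +kernel

/-- The powers of the central element are distinct. -/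
noncomputable def centreOK : Bool :=
  (List.range 12).all fun m => (m == 0) || !Nat.beq (tables.key [0, 63] (List.replicate m 11)) (tables.key [0, 63] [])

theorem centreOK_eq : centreOK = true := by decide +kernel

end CfsgLib.SchurMult.PSLThreeFour
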