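import Cfsg.Agent.Lib.SchurMult.PSLThreeFour.Rule

/-!
Products of generators and representatives, levels 1 to 1.
-/

set_option autoImplicit false
set_option maxHeartbeats 0
set_option maxRecDepth 100000

namespace CfsgLib.SchurMult.PSLThreeFour

theorem ruleOK1_eq : ruleOK 1 = true := by decide +kernel


end CfsgLib.SchurMult.PSLThreeFour
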