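import Cfsg.Agent.Lib.SchurMult.PSLThreeFour.Data

/-!
Checks on the linear part of the cover of `PSL₃(4)`: four elements coded by numbers below four, vectors by
numbers below 64.
-/

set_option autoImplicit false
set_option maxHeartbeats 0
set_option maxRecDepth 100000

namespace CfsgLib.SchurMult.PSLThreeFour

/-- The product of two coded field elements. -/
def mulT (a b : ℕ) : ℕ := [0, 0, 0, 0, 0, 1, 2, 3, 0, 2, 3, 1, 0, 3, 1, 2].getD (4 * a + b) 0

/-- A coordinate of a coded vector. -/
def coord (c j : ℕ) : ℕ := c / 4 ^ j % 4

/-- An entry of a coded matrix. -/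
def entry (m : List ℕ) (i j : ℕ) : ℕ := m.getD (3 * i + j) 0

/-- A row of a coded matrix applied to a coded vector. -/
def rowApp (m : List ℕ) (c i : ℕ) : ℕ :=
  mulT (entry m i 0) (coord c 0) ^^^ mulT (entry m i 1) (coord c 1) ^^^ mulT (entry m i 2) (coord c 2)

/-- A coded matrix applied to a coded vector. -/
def matApp (m : List ℕ) (c : ℕ) : ℕ := rowApp m c 0 + 4 * rowApp m c 1 + 16 * rowApp m c 2

/-- The determinant of a coded matrix. -/
def detT (m : List ℕ) : ℕ :=
  mulT (mulT (entry m 0 0) (entry m 1 1)) (entry m 2 2) ^^^ mulT (mulT (entry m 0 0) (entry m 1 2)) (entry m 2 1) ^^^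
    mulT (mulT (entry m 0 1) (entry m 1 0)) (entry m 2 2) ^^^ mulT (mulT (entry m 0 1) (entry m 1 2)) (entry m 2 0) ^^^
    mulT (mulT (entry m 0 2) (entry m 1 0)) (entry m 2 1) ^^^ mulT (mulT (entry m 0 2) (entry m 1 1)) (entry m 2 0)

/-- A multiple of a coded vector. -/
def smulC (s c : ℕ) : ℕ := mulT s (coord c 0) + 4 * mulT s (coord c 1) + 16 * mulT s (coord c 2)

/-- The normalised multiple of a coded vector. -/
def lineC (c : ℕ) : ℕ :=
  let a := if coord c 0 ≠ 0 then coord c 0 else if coord c 1 ≠ 0 then coord c 1 else coord c 2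
  smulC ([0, 1, 3, 2].getD a 0) c

/-- The named elements act on the first 63 points by their matrices. -/
noncomputable def modelOK : Bool :=
  (List.range 12).all fun i =>
    let m := mats.getD i []
    Nat.beq (detT m) 1 && m.all (fun a => Nat.blt a 4) &&
      (List.range 63).all fun u => Nat.blt (tables.img i u) 63 && Nat.beq (tables.img i u + 1) (matApp m (u + 1))

theorem modelOK_eq : modelOK = true := by decide +kernel

/-- The lines. -/
noncomputable def lineOK : Bool :=
  ((List.range 64).all fun c => (List.range 4).all fun s => (c == 0) || (s == 0) ||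
    (Nat.beq (lineC (smulC s c)) (lineC c) && Nat.blt (smulC s c) 64 && !Nat.beq (smulC s c) 0)) &&
  ((List.range 64).all fun c => (List.range 64).all fun d => (c == 0) || (d == 0) ||
    !Nat.beq (lineC c) (lineC d) || ([1, 2, 3].any fun s => Nat.beq (smulC s c) d))

theorem lineOK_eq : lineOK = true := by decide +kernel

/-- The base points. -/
def base (k : ℕ) : ℕ := [0, 3, 15, 20].getD k 0

/-- The line of a point. -/
def lineP (u : ℕ) : ℕ := lineC (u + 1)

/-- The chain: earlier base lines are fixed, the images of the base line are distinct. -/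
noncomputable def chainOK : Bool :=
  (List.range 4).all fun k =>
    ((reps.getD k []).all fun i => Nat.blt (tables.img i (base k)) 63 && (List.range k).all fun j =>
      Nat.beq (lineP (tables.img i (base j))) (lineP (base j))) &&
    decide ((reps.getD k []).map fun i => lineP (tables.img i (base k))).Nodup

theorem chainOK_eq : chainOK = true := by decide +kernel

end CfsgLib.SchurMult.PSLThreeFour
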