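import Cfsg.Agent.Lib.SchurMult.CentralComm
import Cfsg.Agent.Lib.InvChar.PSLThreeFour

/-!
Commutators of lifts of root elements in a central extension of `PSL₃(4)`, written with the upper
unitriangular coordinates.
-/

set_option autoImplicit false
set_option linter.unusedSectionVars false

namespace CfsgLib.SchurMult.PSLThreeFour

open CfsgLib.InvChar.PSLThreeFour CfsgLib.SchurMult
open scoped commutatorElement

universe u v

variable {F : Type u} [Field F] [Fintype F]

/-- The swap of the first two coordinates. -/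
def swapMat12 (h2 : (1 + 1 : F) = 0) : Matrix.SpecialLinearGroup (Fin 3) F :=
  ⟨!![0, 1, 0; 1, 0, 0; 0, 0, 1], by simp [Matrix.det_fin_three]; linear_combination -h2⟩

/-- The swap of the last two coordinates. -/
def swapMat23 (h2 : (1 + 1 : F) = 0) : Matrix.SpecialLinearGroup (Fin 3) F :=
  ⟨!![1, 0, 0; 0, 0, 1; 0, 1, 0], by simp [Matrix.det_fin_three]; linear_combination -h2⟩

theorem swap12_ut (h2 : (1 + 1 : F) = 0) (b d : F) :
    (QuotientGroup.mk (swapMat12 h2) : Matrix.ProjectiveSpecialLinearGroup (Fin 3) F) * ut 0 b d =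
      ut 0 d b * QuotientGroup.mk (swapMat12 h2) := by
  simp only [ut, ← QuotientGroup.mk_mul]
  congr 1
  apply Subtype.ext
  rw [Matrix.SpecialLinearGroup.coe_mul, Matrix.SpecialLinearGroup.coe_mul]
  ext i j
  fin_cases i <;> fin_cases j <;>
    simp [swapMat12, CfsgLib.InvChar.SymThree.unitri, Matrix.mul_apply, Fin.sum_univ_three]

theorem swap23_ut (h2 : (1 + 1 : F) = 0) (a d : F) :
    (QuotientGroup.mk (swapMat23 h2) : Matrix.ProjectiveSpecialLinearGroup (Fin 3) F) * ut a 0 d =
      ut d 0 a * QuotientGroup.mk (swapMat23 h2) := by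
  simp only [ut, ← QuotientGroup.mk_mul]
  congr 1
  apply Subtype.ext
  rw [Matrix.SpecialLinearGroup.coe_mul, Matrix.SpecialLinearGroup.coe_mul]
  ext i j
  fin_cases i <;> fin_cases j <;>
    simp [swapMat23, CfsgLib.InvChar.SymThree.unitri, Matrix.mul_apply, Fin.sum_univ_three]

/-- A choice of lifts of the unitriangular elements. -/
structure Lifts {Γ : Type v} [Group Γ] (σ : Γ →* Matrix.ProjectiveSpecialLinearGroup (Fin 3) F) where
  /-- the lift -/
  L : F → F → F → Γ
  /-- it is a lift -/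
  map_L : ∀ a b d, σ (L a b d) = ut a b d
  /-- the kernel is central -/
  central : σ.ker ≤ Subgroup.center Γ
  /-- the map is onto -/
  surj : Function.Surjective σ
  /-- four elements -/
  card_F : Fintype.card F = 4

theorem exists_lifts {Γ : Type v} [Group Γ] {σ : Γ →* Matrix.ProjectiveSpecialLinearGroup (Fin 3) F}
    (hc : σ.ker ≤ Subgroup.center Γ) (hs : Function.Surjective σ) (hF : Fintype.card F = 4) :
    Nonempty (Lifts σ) :=
  ⟨{ L := fun a b d => (hs (ut a b d)).choose
     map_L := fun a b d => (hs (ut a b d)).choose_spec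
     central := hc
     surj := hs
     card_F := hF }⟩

namespace Lifts

variable {Γ : Type v} [Group Γ] {σ : Γ →* Matrix.ProjectiveSpecialLinearGroup (Fin 3) F} (l : Lifts σ)

/-- The lift of a first root element. -/
def X (a : F) : Γ := l.L a 0 0
/-- The lift of a second root element. -/
def Y (b : F) : Γ := l.L 0 b 0
/-- The lift of a central root element. -/
def W (d : F) : Γ := l.L 0 0 d
/-- The basic commutator. -/
def C (a b : F) : Γ := ⁅l.X a, l.Y b⁆
/-- The pairing of the central root group with the second one. -/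
def lam (x : F) : Γ := ⁅l.W x, l.Y 1⁆

theorem map_X (a : F) : σ (l.X a) = ut a 0 0 := l.map_L a 0 0
theorem map_Y (b : F) : σ (l.Y b) = ut 0 b 0 := l.map_L 0 b 0
theorem map_W (d : F) : σ (l.W d) = ut 0 0 d := l.map_L 0 0 d

theorem commute_XX (a a' : F) : Commute (σ (l.X a)) (σ (l.X a')) := by
  rw [l.map_X, l.map_X, Commute, SemiconjBy, ut_mul, ut_mul]; simp [add_comm a a']

theorem commute_YY (b b' : F) : Commute (σ (l.Y b)) (σ (l.Y b')) := by
  rw [l.map_Y, l.map_Y, Commute, SemiconjBy, ut_mul, ut_mul]; simp [add_comm b b']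

theorem commute_WW (d d' : F) : Commute (σ (l.W d)) (σ (l.W d')) := by
  rw [l.map_W, l.map_W, Commute, SemiconjBy, ut_mul, ut_mul]; simp [add_comm d d']

theorem commute_WY (d b : F) : Commute (σ (l.W d)) (σ (l.Y b)) := by
  rw [l.map_W, l.map_Y, Commute, SemiconjBy, ut_mul, ut_mul]; simp

theorem commute_XW (a d : F) : Commute (σ (l.X a)) (σ (l.W d)) := by
  rw [l.map_X, l.map_W, Commute, SemiconjBy, ut_mul, ut_mul]; simp

theorem map_conj_X (q a b d : F) :
    σ (l.X q * l.L a b d * (l.X q)⁻¹) = ut a b (d + q * b) := by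
  rw [map_mul, map_mul, map_inv, l.map_X, l.map_L, ut_inv, ut_mul, ut_mul]
  congr 1 <;> ring

theorem WW (d d' : F) : ⁅l.W d, l.W d'⁆ = 1 := by
  have h := comm_conj l.central (l.commute_WY d 1) (l.X d')
  have e : ⁅l.X d' * l.W d * (l.X d')⁻¹, l.X d' * l.Y 1 * (l.X d')⁻¹⁆ = ⁅l.W d, l.W d' * l.Y 1⁆ := by
    refine comm_eq_of_map_eq l.central ?_ ?_
    · rw [W, l.map_conj_X, l.map_L]; simp
    · rw [Y, l.map_conj_X, map_mul, l.map_W, l.map_L, ut_mul]; simp
  rw [e, comm_mul_right l.central (l.commute_WY d 1)] at h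
  exact mul_eq_right.1 h

theorem YY (b b' : F) : ⁅l.Y b, l.Y b'⁆ = 1 := by
  have h2 : (1 + 1 : F) = 0 := by
    rw [one_add_one_eq_two]; exact two_eq_zero l.card_F
  obtain ⟨g, hg⟩ := l.surj (QuotientGroup.mk (swapMat12 h2))
  have h := comm_conj l.central (l.commute_WW b b') g
  have e : ∀ c, σ (g * l.W c * g⁻¹) = σ (l.Y c) := fun c => by
    rw [map_mul, map_mul, map_inv, hg, l.map_W, l.map_Y, swap12_ut h2, mul_inv_cancel_right]
  rw [comm_eq_of_map_eq l.central (e b) (e b'), l.WW] at h
  exact h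

theorem XX (a a' : F) : ⁅l.X a, l.X a'⁆ = 1 := by
  have h2 : (1 + 1 : F) = 0 := by
    rw [one_add_one_eq_two]; exact two_eq_zero l.card_F
  obtain ⟨g, hg⟩ := l.surj (QuotientGroup.mk (swapMat23 h2))
  have h := comm_conj l.central (l.commute_WW a a') g
  have e : ∀ c, σ (g * l.W c * g⁻¹) = σ (l.X c) := fun c => by
    rw [map_mul, map_mul, map_inv, hg, l.map_W, l.map_X, swap23_ut h2, mul_inv_cancel_right]
  rw [comm_eq_of_map_eq l.central (e a) (e a'), l.WW] at h
  exact h

theorem map_WW (d d' : F) : σ (l.W (d + d')) = σ (l.W d * l.W d') := by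
  rw [map_mul, l.map_W, l.map_W, l.map_W, ut_mul]; simp

theorem map_YY (b b' : F) : σ (l.Y (b + b')) = σ (l.Y b * l.Y b') := by
  rw [map_mul, l.map_Y, l.map_Y, l.map_Y, ut_mul]; simp

theorem map_XX (a a' : F) : σ (l.X (a + a')) = σ (l.X a * l.X a') := by
  rw [map_mul, l.map_X, l.map_X, l.map_X, ut_mul]; simp

/-- The relation coming from conjugation by a first root element. -/
theorem WY (d b : F) : ⁅l.W d, l.Y b⁆ = l.lam (d * b) := by
  have h := comm_conj l.central (l.commute_YY b 1) (l.X d)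
  have e : ⁅l.X d * l.Y b * (l.X d)⁻¹, l.X d * l.Y 1 * (l.X d)⁻¹⁆ =
      ⁅l.W (d * b) * l.Y b, l.W d * l.Y 1⁆ := by
    refine comm_eq_of_map_eq l.central ?_ ?_ <;>
      rw [Y, l.map_conj_X, map_mul, l.map_W, l.map_L, ut_mul] <;> simp
  rw [e, l.YY] at h
  have c1 : ∀ x y, Commute (σ (l.Y x)) (σ (l.W y * l.Y 1)) := fun x y => by
    rw [map_mul]; exact ((l.commute_WY y x).symm).mul_right (l.commute_YY x 1)
  rw [comm_mul_left l.central (c1 b d), comm_mul_right l.central (l.commute_WY (d * b) 1),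
    comm_mul_right l.central (l.commute_YY b 1), l.WW, l.YY, one_mul, mul_one, mul_eq_one_iff_eq_inv,
    commutatorElement_inv] at h
  exact h.symm

theorem lam_add (x y : F) : l.lam (x + y) = l.lam x * l.lam y := by
  rw [lam, lam, lam, ← comm_mul_left l.central (l.commute_WY y 1)]
  exact comm_eq_of_map_eq l.central (l.map_WW x y) rfl

theorem lam_zero : l.lam 0 = 1 := by
  have h := l.lam_add 0 0
  rw [add_zero] at h
  exact left_eq_mul.1 h

theorem lam_mul_self (x : F) : l.lam x * l.lam x = 1 := by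
  rw [← l.lam_add, ← two_mul, two_eq_zero l.card_F, zero_mul, l.lam_zero]

theorem lam_inv (x : F) : (l.lam x)⁻¹ = l.lam x := inv_eq_of_mul_eq_one_right (l.lam_mul_self x)

theorem lam_mem_ker (x : F) : l.lam x ∈ σ.ker := comm_mem_ker (l.commute_WY x 1)

theorem lam_central (x : F) (g : Γ) : g * l.lam x = l.lam x * g := ker_comm l.central (l.lam_mem_ker x) g

theorem map_C (a b : F) : σ (l.C a b) = σ (l.W (a * b)) := by
  rw [C, map_commutatorElement, l.map_X, l.map_Y, l.map_W, commutatorElement_def, ut_inv, ut_inv, ut_mul,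
    ut_mul, ut_mul]
  congr 1 <;> ring

theorem CC (a b a' b' : F) : Commute (l.C a b) (l.C a' b') := by
  rw [← commutatorElement_eq_one_iff_commute,
    comm_eq_of_map_eq l.central (l.map_C a b) (l.map_C a' b'), l.WW]

theorem C_zero_left (b : F) : l.C 0 b = 1 := by
  rw [C, comm_eq_of_map_eq l.central (a' := 1) (b' := l.Y b) (by rw [l.map_X, map_one, ut_zero]) rfl,
    commutatorElement_one_left]

theorem C_zero_right (a : F) : l.C a 0 = 1 := by
  rw [C, comm_eq_of_map_eq l.central (a' := l.X a) (b' := 1) rfl (by rw [l.map_Y, map_one, ut_zero]),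
    commutatorElement_one_right]

theorem C_add_left (a a' b : F) :
    l.C (a + a') b = ⁅l.X a, l.W (a' * b)⁆ * l.C a' b * l.C a b := by
  rw [← comm_eq_of_map_eq l.central (a := l.X a) rfl (l.map_C a' b)]
  rw [C, comm_eq_of_map_eq l.central (l.map_XX a a') rfl]
  simp only [C, commutatorElement_def]
  group

theorem C_add_right (a b b' : F) :
    l.C a (b + b') = l.C a b * l.C a b' * l.lam (a * b' * b) := by
  have e : ⁅l.Y b, l.C a b'⁆ = l.lam (a * b' * b) := by
    rw [comm_eq_of_map_eq l.central (a := l.Y b) rfl (l.map_C a b'), ← commutatorElement_inv, l.WY,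
      l.lam_inv]
  rw [mul_assoc, l.lam_central, ← e, C, comm_eq_of_map_eq l.central rfl (l.map_YY b b')]
  simp only [C, commutatorElement_def]
  group

theorem C_mul_self (a b : F) : l.C a b * l.C a b = l.lam (a * b * b) := by
  have h := l.C_add_right a b b
  rw [← two_mul, two_eq_zero l.card_F, zero_mul, l.C_zero_right] at h
  rw [eq_inv_of_mul_eq_one_left h.symm, l.lam_inv]

theorem XW (a d : F) (ha : a ≠ 0) : ⁅l.X a, l.W d⁆ = l.lam (d * (d * a⁻¹)) := by
  have h := l.C_add_left a a (a⁻¹ * d)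
  rw [← two_mul, two_eq_zero l.card_F, zero_mul, l.C_zero_left, mul_inv_cancel_left₀ ha, mul_assoc,
    l.C_mul_self, mul_inv_cancel_left₀ ha, mul_comm a⁻¹ d] at h
  rw [eq_inv_of_mul_eq_one_left h.symm, l.lam_inv]

theorem XW_zero (d : F) : ⁅l.X 0, l.W d⁆ = 1 := by
  rw [comm_eq_of_map_eq l.central (a' := 1) (b' := l.W d) (by rw [l.map_X, map_one, ut_zero]) rfl,
    commutatorElement_one_left]

end Lifts

end CfsgLib.SchurMult.PSLThreeFour
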