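import Cfsg.Agent.Lib.SchurMult.PSLThreeFour.CertA
import Cfsg.Agent.Lib.SchurMult.PSLThreeFour.CertB
import Cfsg.Agent.Lib.SchurMult.PSLThreeFour.CertC
import Cfsg.Agent.Lib.SchurMult.PSLThreeFour.CertD

/-!
The normal form in the twelvefold cover of `PSL₃(4)` along the stabiliser chain of the projective plane.
-/

set_option autoImplicit false
set_option linter.style.haveILetI false
set_option maxRecDepth 100000

namespace CfsgLib.SchurMult.PSLThreeFour

noncomputable section

open CfsgLib.SporRecognition.CosetCert (allBelow_spec)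
open CfsgLib.SchurMult (lprod lprod_append)

theorem permSpec {i : ℕ} (hi : i < 12) :
    (∀ u < 543, tables.imgW [i, 12 + i] u = u ∧ tables.imgW [12 + i, i] u = u) ∧
      ∀ u < 543, tables.img i u < 543 ∧ tables.img (12 + i) u < 543 := by
  have h := permOK_eq
  simp only [permOK, List.all_eq_true, List.mem_range, Bool.and_eq_true] at h
  obtain ⟨⟨h1, h2⟩, h3⟩ := h i hi
  simp only [PermCert.Tables.sameWord, Bool.and_eq_true] at h1 h2
  refine ⟨fun u hu => ⟨Nat.eq_of_beq_eq_true (allBelow_spec h1.2 u hu),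
    Nat.eq_of_beq_eq_true (allBelow_spec h2.2 u hu)⟩, fun u hu => ?_⟩
  have := allBelow_spec h3 u hu
  simpa [Nat.blt_eq] using this

/-- A named element as a permutation. -/
def permEl (i : ℕ) (hi : i < 12) : Equiv.Perm (Fin 543) where
  toFun u := ⟨tables.img i u, ((permSpec hi).2 u u.2).1⟩
  invFun u := ⟨tables.img (12 + i) u, ((permSpec hi).2 u u.2).2⟩
  left_inv u := Fin.ext (((permSpec hi).1 u u.2).2)
  right_inv u := Fin.ext (((permSpec hi).1 u u.2).1)

/-- The named elements and their inverses. -/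
def el₀ (i : ℕ) : Equiv.Perm (Fin 543) :=
  if h : i < 12 then permEl i h else if h' : i - 12 < 12 then (permEl (i - 12) h').symm else 1

/-- All the listed elements. -/
def el (i : ℕ) : Equiv.Perm (Fin 543) :=
  if i < 24 then el₀ i else lprod el₀ (repWords.getD (i - 24) [])

theorem el₀_img {i : ℕ} (hi : i < 24) (u : Fin 543) : ((el₀ i u : Fin 543) : ℕ) = tables.img i u := by
  rw [el₀]
  by_cases h : i < 12
  · rw [dif_pos h]; rfl
  · rw [dif_neg h, dif_pos (show i - 12 < 12 by omega)]
    show tables.img (12 + (i - 12)) u = _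
    rw [show 12 + (i - 12) = i by omega]

theorem lprod_el₀ : ∀ {w : List ℕ}, (∀ i ∈ w, i < 24) → ∀ u : Fin 543,
    ((lprod el₀ w u : Fin 543) : ℕ) = tables.imgW w u
  | [], _, u => by simp [lprod, PermCert.Tables.imgW]
  | i :: w, hw, u => by
    rw [lprod, Equiv.Perm.mul_apply, el₀_img (hw i (List.mem_cons_self ..)),
      lprod_el₀ (fun j hj => hw j (List.mem_cons_of_mem _ hj))]
    rfl

theorem length_ts : tables.ts.length = 84 := rfl

theorem word_facts : (∀ i < 12, tables.sameWord [i] (namedWords.getD i []) = true) ∧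
    (∀ j < 60, tables.sameWord [24 + j] (repWords.getD j []) = true) ∧
    (∀ i ∈ [11, 8, 5, 3, 6, 7], tables.sameWord [11, i] [i, 11] = true) ∧
    tables.sameWord (List.replicate 12 11) [] = true ∧
    ∀ c < 2, ∀ t < 3, tables.sameWord ((words.getD c []).getD t [])
      (List.replicate ((exps.getD c []).getD t 0) 11) = true := by
  have h := wordOK_eq
  simp only [wordOK, List.all_eq_true, List.mem_range, Bool.and_eq_true] at h
  obtain ⟨⟨⟨⟨h1, h2⟩, h3⟩, h4⟩, h5⟩ := h
  exact ⟨h1, h2, h3, h4, h5⟩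

theorem repWords_lt : ∀ j < 60, ∀ i ∈ repWords.getD j [], i ∈ [11, 8, 5, 3, 6, 7] := by decide +kernel

theorem namedWords_lt : ∀ j < 12, ∀ i ∈ namedWords.getD j [], i ∈ [11, 8, 5, 3, 6, 7] := by decide +kernel

theorem gens_lt {i : ℕ} (h : i ∈ [11, 8, 5, 3, 6, 7]) : i < 12 := by
  simp only [List.mem_cons, List.not_mem_nil, or_false] at h
  omega

theorem realises : tables.Realises (MonoidHom.id (Equiv.Perm (Fin 543))) el where
  deg := rfl
  inj := Function.injective_id
  img i hi u := by
    rw [length_ts] at hi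
    rw [MonoidHom.id_apply, el]
    by_cases h : i < 24
    · rw [if_pos h, el₀_img h]
    · rw [if_neg h, lprod_el₀ fun j hj => (gens_lt (repWords_lt _ (by omega) j hj)).trans (by norm_num)]
      have h2 := word_facts.2.1 (i - 24) (by omega)
      simp only [PermCert.Tables.sameWord, Bool.and_eq_true] at h2
      have h3 := Nat.eq_of_beq_eq_true (allBelow_spec h2.2 u u.2)
      rw [show 24 + (i - 24) = i by omega] at h3
      exact h3.symm

theorem eq_of_same {w w' : List ℕ} (h : tables.sameWord w w' = true) : lprod el w = lprod el w' :=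
  realises.eq_of_sameWord h

theorem el_apply {i : ℕ} (hi : i < 84) (u : Fin 543) : ((el i u : Fin 543) : ℕ) = tables.img i u :=
  realises.img i (by rw [length_ts]; exact hi) u

theorem lprod_replicate (i : ℕ) : ∀ k, lprod el (List.replicate k i) = el i ^ k
  | 0 => rfl
  | k + 1 => by rw [List.replicate_succ, lprod, lprod_replicate i k, pow_succ']

theorem lprod_el {w : List ℕ} (h : ∀ i ∈ w, i < 24) : lprod el w = lprod el₀ w := by
  induction w with
  | nil => rfl
  | cons i w ih =>
    rw [lprod, lprod, ih (fun j hj => h j (List.mem_cons_of_mem _ hj)), el, if_pos (h i (List.mem_cons_self ..))]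

/-- The group generated by the generators at one level. -/
def Gk (k : ℕ) : Subgroup (Equiv.Perm (Fin 543)) :=
  Subgroup.closure (el '' {i | i ∈ levels.getD k []})

/-- The covering group. -/
def Cover : Subgroup (Equiv.Perm (Fin 543)) := Gk 0

theorem Gk_induction {k : ℕ} {p : Equiv.Perm (Fin 543) → Prop} (h1 : p 1)
    (hmul : ∀ i ∈ levels.getD k [], ∀ g ∈ Gk k, p g → p (el i * g)) {g : Equiv.Perm (Fin 543)} (hg : g ∈ Gk k) :
    p g := by
  have : g ∈ Gk k ∧ p g := by
    rw [Gk, ← Subgroup.mem_toSubmonoid, Subgroup.closure_toSubmonoid_of_finite] at hg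
    induction hg using Submonoid.closure_induction_left with
    | one => exact ⟨one_mem _, h1⟩
    | mul_left u hu y _ ih =>
      obtain ⟨i, hi, rfl⟩ := hu
      exact ⟨mul_mem (Subgroup.subset_closure ⟨i, hi, rfl⟩) ih.1, hmul i hi y ih.1 ih.2⟩
  exact this.2

theorem levels_zero : levels.getD 0 [] = [11, 8, 5, 3, 6, 7] := rfl

theorem gen_mem_cover {i : ℕ} (hi : i ∈ [11, 8, 5, 3, 6, 7]) : el i ∈ Cover :=
  Subgroup.subset_closure ⟨i, hi, rfl⟩

theorem named_mem {i : ℕ} (hi : i < 12) : el i ∈ Cover := by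
  have h := eq_of_same (word_facts.1 i hi)
  rw [lprod, lprod, mul_one] at h
  rw [h]
  exact PermCert.Tables.lprod_mem fun j hj => gen_mem_cover (namedWords_lt i hi j hj)

theorem inv_named {i : ℕ} (hi : i < 12) : el (12 + i) = (el i)⁻¹ := by
  rw [el, el, if_pos (by omega), if_pos (by omega), el₀, el₀, dif_neg (by omega), dif_pos (by omega),
    dif_pos hi, Equiv.Perm.inv_def]
  simp

theorem short_mem {i : ℕ} (hi : i < 24) : el i ∈ Cover := by
  by_cases h : i < 12
  · exact named_mem h
  · rw [show i = 12 + (i - 12) by omega, inv_named (by omega)]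
    exact inv_mem (named_mem (by omega))

theorem z_mem (k : ℕ) (hk : k < 4) : el 11 ∈ Gk k := by
  have : ∀ k < 4, 11 ∈ levels.getD k [] := by decide +kernel
  exact Subgroup.subset_closure ⟨11, this k hk, rfl⟩

theorem Gk_mono {k : ℕ} (hk : k < 4) : Gk (k + 1) ≤ Gk k := by
  have h : ∀ k < 4, ∀ i ∈ levels.getD (k + 1) [], i ∈ levels.getD k [] := by decide +kernel
  exact Subgroup.closure_mono (Set.image_mono fun i hi => h k hk i hi)

/-- The representatives at a level. -/
def R (k : ℕ) : List ℕ := reps.getD k []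

theorem R_lt : ∀ k < 4, ∀ i ∈ R k, 24 ≤ i ∧ i < 84 := by decide +kernel

theorem rep_mem {k : ℕ} (hk : k < 4) {i : ℕ} (hi : i ∈ R k) : el i ∈ Gk k := by
  have h : ∀ k < 4, ∀ i ∈ R k, ∀ j ∈ repWords.getD (i - 24) [], j ∈ levels.getD k [] := by decide +kernel
  obtain ⟨h24, h84⟩ := R_lt k hk i hi
  rw [el, if_neg (by omega), ← lprod_el fun j hj => (gens_lt (repWords_lt _ (by omega) j hj)).trans (by norm_num)]
  exact PermCert.Tables.lprod_mem fun j hj => Subgroup.subset_closure ⟨j, h k hk i hi j hj, rfl⟩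

/-- The normal forms with the last `n` levels. -/
def NF : ℕ → Set (Equiv.Perm (Fin 543))
  | 0 => {g | ∃ m : ℕ, g = el 11 ^ m}
  | n + 1 => {g | ∃ i ∈ R (3 - n), ∃ t ∈ NF n, g = el i * t}

/-- A word of a rule. -/
theorem ruleWord_mem : ∀ (n : ℕ), n ≤ 4 → ∀ (q : List ℕ) (o : ℕ),
    (∀ j < n, q.getD (o + j) 0 < (R (4 - n + j)).length) →
      lprod el (((List.range n).map fun j => (R (4 - n + j)).getD (q.getD (o + j) 0) 0) ++
        List.replicate (q.getD (o + n) 0) 11) ∈ NF n
  | 0, _, q, o, _ => ⟨q.getD o 0, by simp [lprod_replicate]⟩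
  | n + 1, hn, q, o, h => by
    have hidx : 4 - (n + 1) = 3 - n := by omega
    have h0 := h 0 (by omega)
    simp only [Nat.add_zero] at h0
    have ih := ruleWord_mem n (by omega) q (o + 1) fun j hj => by
      have := h (j + 1) (by omega)
      rwa [show o + 1 + j = o + (j + 1) by omega, show 4 - n + j = 4 - (n + 1) + (j + 1) by omega]
    refine ⟨(R (3 - n)).getD (q.getD o 0) 0, ?_, _, ih, ?_⟩
    · rw [hidx] at h0
      rw [List.getD_eq_getElem _ _ h0]
      exact List.getElem_mem h0
    · rw [List.range_succ_eq_map, List.map_cons, List.map_map, List.cons_append, lprod, Nat.add_zero,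
        Nat.add_zero, hidx]
      congr 2
      rw [show o + (n + 1) = o + 1 + n by omega]
      congr 1
      refine List.map_congr_left fun j _ => ?_
      simp only [Function.comp]
      rw [show 3 - n + Nat.succ j = 4 - n + j by omega, show o + Nat.succ j = o + 1 + j by omega]

theorem rule_facts {k : ℕ} (hk : k < 4) : ∀ s ∈ levels.getD k [], ∀ i ∈ R k,
    el s * el i ∈ NF (4 - k) := by
  have hok : ruleOK k = true := by
    rcases (show k = 0 ∨ k = 1 ∨ k = 2 ∨ k = 3 by omega) with rfl | rfl | rfl | rfl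
    exacts [ruleOK0_eq, ruleOK1_eq, ruleOK2_eq, ruleOK3_eq]
  intro s hs i hi
  obtain ⟨si, hsi, rfl⟩ := List.getElem_of_mem hs
  obtain ⟨ri, hri, rfl⟩ := List.getElem_of_mem hi
  simp only [ruleOK, List.all_eq_true, List.mem_range, Bool.and_eq_true, Nat.blt_eq] at hok
  obtain ⟨hlt, hsame⟩ := hok si hsi ri hri
  have h := eq_of_same hsame
  rw [R] at hri
  rw [lprod, lprod, lprod, mul_one, List.getD_eq_getElem _ _ hsi, List.getD_eq_getElem _ _ hri] at h
  show el (levels.getD k [])[si] * el (reps.getD k [])[ri] ∈ _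
  rw [h, ruleWord]
  have := ruleWord_mem (4 - k) (by omega) (((rules.getD k []).getD si []).getD ri []) 0 fun j hj => by
    rw [Nat.zero_add, show 4 - (4 - k) + j = k + j by omega]; exact hlt j hj
  simpa only [R, Nat.zero_add, show 4 - (4 - k) = k by omega] using this

theorem one_idx : ∀ k < 4, ∃ i ∈ R k, repWords.getD (i - 24) [] = [] := by decide +kernel

/-- The normal forms make up the groups of the chain. -/
theorem NF_eq : ∀ n, n ≤ 4 → ∀ g, g ∈ NF n ↔
    g ∈ (if n = 0 then Subgroup.zpowers (el 11) else Gk (4 - n))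
  | 0, _, g => by
    rw [if_pos rfl]
    refine ⟨fun ⟨m, hm⟩ => hm ▸ pow_mem (Subgroup.mem_zpowers _) m, fun hg => ?_⟩
    obtain ⟨m, hm⟩ := mem_powers_iff_mem_zpowers.2 hg
    exact ⟨m, hm.symm⟩
  | n + 1, hn, g => by
    rw [if_neg (by omega), show 4 - (n + 1) = 3 - n by omega]
    have ih := NF_eq n (by omega)
    have hsub : ∀ t ∈ NF n, t ∈ Gk (3 - n) := by
      intro t ht
      have h := (ih t).1 ht
      rcases Nat.eq_zero_or_pos n with rfl | hpos
      · rw [if_pos rfl] at h
        exact (Subgroup.zpowers_le).2 (z_mem _ (by omega)) h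
      · rw [if_neg (by omega), show 4 - n = 3 - n + 1 by omega] at h
        exact Gk_mono (by omega) h
    constructor
    · rintro ⟨i, hi, t, ht, rfl⟩
      exact mul_mem (rep_mem (by omega) hi) (hsub t ht)
    · intro hg
      refine Gk_induction (p := fun g => g ∈ NF (n + 1)) ?_ ?_ hg
      · obtain ⟨i, hi, he⟩ := one_idx (3 - n) (by omega)
        refine ⟨i, hi, 1, (ih 1).2 (one_mem _), ?_⟩
        obtain ⟨h24, -⟩ := R_lt (3 - n) (by omega) i hi
        rw [el, if_neg (by omega), he, lprod, one_mul]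
      · rintro s hs _ - ⟨i, hi, t, ht, rfl⟩
        obtain ⟨i', hi', t', ht', e⟩ : el s * el i ∈ NF (n + 1) := by
          have := rule_facts (k := 3 - n) (by omega) s hs i hi
          rwa [show 4 - (3 - n) = n + 1 by omega] at this
        refine ⟨i', hi', t' * t, (ih _).2 (mul_mem ((ih t').1 ht') ((ih t).1 ht)), ?_⟩
        rw [← mul_assoc, e, mul_assoc]

theorem mem_NF {g : Equiv.Perm (Fin 543)} (hg : g ∈ Cover) : g ∈ NF 4 := (NF_eq 4 le_rfl g).2 hg

theorem NF_le_cover {g : Equiv.Perm (Fin 543)} (hg : g ∈ NF 4) : g ∈ Cover := (NF_eq 4 le_rfl g).1 hg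

theorem z_central {g : Equiv.Perm (Fin 543)} (hg : g ∈ Cover) : Commute (el 11) g :=
  Gk_induction (k := 0) (p := fun g => Commute (el 11) g) (Commute.one_right _)
    (fun i hi g _ h => (by
      have := eq_of_same (word_facts.2.2.1 i hi)
      exact Commute.mul_right (show el 11 * el i = el i * el 11 by simpa [lprod] using this) h)) hg

theorem z_pow_twelve : el 11 ^ 12 = 1 := by
  rw [← lprod_replicate]; exact eq_of_same word_facts.2.2.2.1

theorem z_pow_eq_one {m : ℕ} (h : el 11 ^ m = 1) : 12 ∣ m := by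
  rw [← Nat.mod_add_div m 12, pow_add, pow_mul, z_pow_twelve, one_pow, mul_one] at h
  by_contra hne
  have hm : m % 12 ≠ 0 := fun e => hne (Nat.dvd_of_mod_eq_zero e)
  have hok := centreOK_eq
  simp only [centreOK, List.all_eq_true, List.mem_range, Bool.or_eq_true, beq_iff_eq, Bool.not_eq_true'] at hok
  have hkey := (hok (m % 12) (Nat.mod_lt _ (by norm_num))).resolve_left hm
  have e := realises.key_eq (pts := [0, 63]) (w := List.replicate (m % 12) 11) (w' := [])
    (fun p hp => by simp at hp; omega) (fun i hi => by rw [List.eq_of_mem_replicate hi, length_ts]; norm_num)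
    (fun i hi => absurd hi List.not_mem_nil) (by rw [lprod_replicate, h]; rfl)
  simp [e] at hkey

end

end CfsgLib.SchurMult.PSLThreeFour
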