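import Cfsg.Agent.Lib.SchurMult.PSLThreeFour.Bound
import Cfsg.Agent.Lib.SchurMult.SmallSylow

/-!
Every stem extension of `PSL₃(4)` has kernel an image of `C₃ × C₄ × C₄`.
-/

set_option autoImplicit false
set_option linter.unusedSectionVars false
set_option linter.style.haveILetI false

namespace CfsgLib.SchurMult.PSLThreeFour

open CfsgLib.InvChar.PSLThreeFour CfsgLib.SchurMult
open scoped commutatorElement

universe u

set_option maxHeartbeats 1000000

variable {F : Type u} [Field F] [Fintype F] {Γ : Type u} [Group Γ] [Finite Γ]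
  {σ : Γ →* Matrix.ProjectiveSpecialLinearGroup (Fin 3) F}

/-- The derived group of the preimage of a group of prime square order, inside the kernel. -/
theorem exists_square_gen (hc : σ.ker ≤ Subgroup.center Γ) (hs : Function.Surjective σ) {p : ℕ} [hp : Fact p.Prime]
    (Q : Subgroup (Matrix.ProjectiveSpecialLinearGroup (Fin 3) F)) (hQ : Nat.card Q = p ^ 2) :
    ∃ c ∈ σ.ker, c ^ p = 1 ∧ ⁅Q.comap σ, Q.comap σ⁆ ≤ Subgroup.zpowers c := by
  classical
  have hcomm : ∀ a ∈ Q, ∀ b ∈ Q, Commute a b := fun a ha b hb =>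
    congrArg Subtype.val ((IsPGroup.isMulCommutative_of_card_eq_prime_sq hQ).is_comm.comm
      (⟨a, ha⟩ : Q) ⟨b, hb⟩)
  obtain ⟨x, hxQ, y, hyQ, hxy, hgen⟩ : ∃ x ∈ Q, ∃ y ∈ Q, (x ^ p = 1 ∨ y = 1) ∧ Q = Subgroup.closure {x, y} := by
    by_cases hcyc : ∃ g ∈ Q, Subgroup.zpowers g = Q
    · obtain ⟨g, hg, he⟩ := hcyc
      refine ⟨g, hg, 1, one_mem _, Or.inr rfl, le_antisymm ?_ ?_⟩
      · rw [← he, Subgroup.zpowers_le]; exact Subgroup.subset_closure (by simp)
      · rw [Subgroup.closure_le]; rintro _ (rfl | rfl); exacts [hg, one_mem _]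
    · push Not at hcyc
      obtain ⟨x, hx, hx1⟩ : ∃ x ∈ Q, x ≠ 1 := by
        by_contra! h
        exact hcyc 1 (one_mem _) (le_antisymm ((Subgroup.zpowers_le).2 (one_mem _))
          (fun z hz => by rw [h z hz]; exact one_mem _))
      have hox : orderOf x = p := by
        have hd : orderOf x ∣ p ^ 2 := hQ ▸ Subgroup.orderOf_dvd_natCard Q hx
        obtain ⟨k, hk, he⟩ := (Nat.dvd_prime_pow hp.out).1 hd
        interval_cases k
        · exact absurd (orderOf_eq_one_iff.1 (by simpa using he)) hx1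
        · simpa using he
        · refine absurd (Subgroup.eq_of_le_of_card_ge ((Subgroup.zpowers_le).2 hx) ?_) (hcyc x hx)
          rw [hQ, Nat.card_zpowers, he]
      obtain ⟨y, hy, hyx⟩ : ∃ y ∈ Q, y ∉ Subgroup.zpowers x := by
        by_contra! h
        exact hcyc x hx (le_antisymm ((Subgroup.zpowers_le).2 hx) h)
      have hle : Subgroup.closure {x, y} ≤ Q := by
        rw [Subgroup.closure_le]; rintro _ (rfl | rfl); exacts [hx, hy]
      refine ⟨x, hx, y, hy, Or.inl (hox ▸ pow_orderOf_eq_one x), (Subgroup.eq_of_le_of_card_ge hle ?_).symm⟩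
      have hlt : Subgroup.zpowers x < Subgroup.closure {x, y} :=
        lt_of_le_of_ne ((Subgroup.zpowers_le).2 (Subgroup.subset_closure (by simp))) fun e =>
          hyx (e ▸ Subgroup.subset_closure (by simp))
      obtain ⟨k, hk, he⟩ := (Nat.dvd_prime_pow hp.out).1 (hQ ▸ Subgroup.card_dvd_of_le hle)
      have h1 : p < p ^ k := by
        rw [← he, ← hox, ← Nat.card_zpowers]
        exact lt_of_le_of_ne (Subgroup.card_le_of_le hlt.le) fun e =>
          hlt.ne (Subgroup.eq_of_le_of_card_ge hlt.le e.ge)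
      interval_cases k
      · simp at h1; have := hp.out.two_le; omega
      · simp at h1
      · rw [hQ, he]
  obtain ⟨X, hX⟩ := hs x
  obtain ⟨Y, hY⟩ := hs y
  have hXY : Commute (σ X) (σ Y) := by rw [hX, hY]; exact hcomm x hxQ y hyQ
  refine ⟨⁅X, Y⁆, comm_mem_ker hXY, ?_, ?_⟩
  · rcases hxy with h | h
    · rw [← comm_pow_left hc hXY, comm_eq_of_map_eq hc (a' := 1) (b' := Y) (by rw [map_pow, hX, h, map_one]) rfl,
        commutatorElement_one_left]
    · rw [comm_eq_of_map_eq hc (a' := X) (b' := 1) rfl (by rw [hY, h, map_one]), commutatorElement_one_right,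
        one_pow]
  · have e : Q = Subgroup.closure (σ '' {X, Y}) := by rw [hgen, Set.image_pair, hX, hY]
    rw [e]
    refine commutator_comap_closure_le hc _ _ (fun s _ => ?_) ?_
    · rw [Subgroup.mem_normalizer_iff]
      intro z
      constructor
      · intro hz
        have hzk : z ∈ σ.ker := (Subgroup.zpowers_le).2 (comm_mem_ker hXY) hz
        rwa [ker_comm hc hzk s, mul_inv_cancel_right]
      · intro hz
        have hzk : s * z * s⁻¹ ∈ σ.ker := (Subgroup.zpowers_le).2 (comm_mem_ker hXY) hz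
        have e : z = s⁻¹ * (s * z * s⁻¹) * s := by group
        rw [e, mul_assoc, ← ker_comm hc hzk s, inv_mul_cancel_left]
        exact hz
    · rintro a (rfl | rfl) b (rfl | rfl)
      · rw [commutatorElement_self]; exact one_mem _
      · exact Subgroup.mem_zpowers _
      · rw [← commutatorElement_inv b a]; exact inv_mem (Subgroup.mem_zpowers _)
      · rw [commutatorElement_self]; exact one_mem _

/-- The kernel of a stem extension is generated by three elements of orders dividing 4, 4 and 3. -/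
theorem ker_le_closure (hσ : Cfsg.IsStemExtension σ) (hF : Fintype.card F = 4) :
    ∃ u v c : σ.ker, u ^ 4 = 1 ∧ v ^ 4 = 1 ∧ c ^ 3 = 1 ∧ Subgroup.closure ({u, v, c} : Set σ.ker) = ⊤ := by
  classical
  obtain ⟨l⟩ := exists_lifts hσ.2.1 hσ.1 hF
  obtain ⟨w, -, -, -, hw, -, -⟩ := CfsgLib.InvChar.SymThree.four_basis hF
  have hcard := CfsgLib.InvChar.SymThree.card_PSL_three_four hF
  haveI : Fact (Nat.Prime 3) := ⟨Nat.prime_three⟩
  obtain ⟨Q⟩ : Nonempty (Sylow 3 (Matrix.ProjectiveSpecialLinearGroup (Fin 3) F)) := inferInstance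
  have hQ : Nat.card Q = 3 ^ 2 := by
    rw [Q.card_eq_multiplicity, hcard]
    congr 1
    have h : (20160 : ℕ).factorization 3 = padicValNat 3 20160 := Nat.factorization_def _ Nat.prime_three
    rw [h, show (20160 : ℕ) = 3 ^ 2 * 2240 from rfl, padicValNat.mul (by norm_num) (by norm_num),
      padicValNat.prime_pow, padicValNat.eq_zero_of_not_dvd (by norm_num)]
  obtain ⟨c, hck, hc3, hcle⟩ := exists_square_gen hσ.2.1 hσ.1 (Q : Subgroup _) hQ
  have hU4 := l.U_pow_four hw
  let u : σ.ker := ⟨l.U₁ w, l.U₁_mem w⟩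
  let v : σ.ker := ⟨l.U₂ w, l.U₂_mem hw⟩
  let c' : σ.ker := ⟨c, hck⟩
  refine ⟨u, v, c', Subtype.ext hU4.1, Subtype.ext hU4.2, Subtype.ext hc3, ?_⟩
  set M := Subgroup.closure ({u, v, c'} : Set σ.ker) with hM
  have hK : l.K w ≤ M.map σ.ker.subtype := by
    rw [Lifts.K, Subgroup.closure_le]
    rintro _ (rfl | rfl)
    exacts [⟨u, Subgroup.subset_closure (by simp), rfl⟩, ⟨v, Subgroup.subset_closure (by simp), rfl⟩]
  rw [eq_top_iff]
  rintro ⟨z, hz⟩ -
  have hiU : (U : Subgroup (Matrix.ProjectiveSpecialLinearGroup (Fin 3) F)).index = 315 := by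
    have h := Subgroup.card_mul_index (U : Subgroup (Matrix.ProjectiveSpecialLinearGroup (Fin 3) F))
    rw [card_U hF, hcard] at h; omega
  have hiQ : (Q : Subgroup (Matrix.ProjectiveSpecialLinearGroup (Fin 3) F)).index = 2240 := by
    have h := Subgroup.card_mul_index (Q : Subgroup (Matrix.ProjectiveSpecialLinearGroup (Fin 3) F))
    rw [hQ, hcard] at h; omega
  obtain ⟨h1, h1k⟩ := ker_pow_index_mem hσ (U : Subgroup (Matrix.ProjectiveSpecialLinearGroup (Fin 3) F)) hz
  obtain ⟨h2, -⟩ := ker_pow_index_mem hσ (Q : Subgroup (Matrix.ProjectiveSpecialLinearGroup (Fin 3) F)) hz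
  rw [hiU] at h1 h1k
  rw [hiQ] at h2
  have e1 : (⟨z, hz⟩ : σ.ker) ^ 315 ∈ M := by
    obtain ⟨m, hm, he⟩ := hK (l.commutator_inf_ker hw h1 h1k)
    have : m = (⟨z, hz⟩ : σ.ker) ^ 315 := Subtype.ext (by simpa using he)
    rwa [← this]
  have e2 : (⟨z, hz⟩ : σ.ker) ^ 2240 ∈ M := by
    obtain ⟨n, hn⟩ := hcle h2
    have : c' ^ n = (⟨z, hz⟩ : σ.ker) ^ 2240 := Subtype.ext (by simpa using hn)
    rw [← this]
    exact zpow_mem (Subgroup.subset_closure (by simp)) n
  have e35 : (⟨z, hz⟩ : σ.ker) ^ 35 ∈ M := by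
    have h : (⟨z, hz⟩ : σ.ker) ^ (35 : ℤ) = ((⟨z, hz⟩ : σ.ker) ^ 315) ^ (-7 : ℤ) * (⟨z, hz⟩ : σ.ker) ^ 2240 := by
      rw [← zpow_natCast, ← zpow_mul, ← zpow_natCast, ← zpow_add]; norm_num
    rw [← zpow_natCast, show ((35 : ℕ) : ℤ) = 35 from rfl, h]
    exact mul_mem (zpow_mem e1 _) e2
  have hcop : Nat.Coprime 35 (orderOf (⟨z, hz⟩ : σ.ker)) := by
    have key : ∀ p : ℕ, p.Prime → ¬ p ^ 2 ∣ 20160 → Nat.Coprime p (orderOf (⟨z, hz⟩ : σ.ker)) := by
      intro p hp hsq
      rw [hp.coprime_iff_not_dvd]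
      intro hd
      exact not_dvd_card_ker_of_sq_not_dvd hσ hp (by rwa [hcard]) (hd.trans (orderOf_dvd_natCard _))
    have h := Nat.Coprime.mul_left (key 5 (by norm_num) (by norm_num)) (key 7 (by norm_num) (by norm_num))
    simpa using h
  obtain ⟨m, hm⟩ := exists_pow_eq_self_of_coprime hcop
  rw [← hm]
  exact pow_mem e35 m

/-- The bound. -/
theorem exists_surjective (hσ : Cfsg.IsStemExtension σ) (hF : Fintype.card F = 4) :
    ∃ π : Multiplicative (ZMod 3 × ZMod 4 × ZMod 4) →* σ.ker, Function.Surjective π := by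
  obtain ⟨u, v, c, hu, hv, hc, htop⟩ := ker_le_closure hσ hF
  letI : CommGroup σ.ker :=
    { mul_comm := fun a b => Subtype.ext (ker_comm hσ.2.1 b.2 (a : Γ)) }
  let lift : ∀ n : ℕ, ∀ g : σ.ker, g ^ n = 1 → (ZMod n →+ Additive σ.ker) := fun n g h =>
    ZMod.lift n ⟨zmultiplesHom (Additive σ.ker) (Additive.ofMul g), by
      apply Additive.toMul.injective
      simpa [zmultiplesHom_apply] using h⟩
  let f := (lift 3 c hc).coprod ((lift 4 u hu).coprod (lift 4 v hv))
  refine ⟨AddMonoidHom.toMultiplicativeLeft f, ?_⟩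
  rw [← MonoidHom.range_eq_top, eq_top_iff, ← htop, Subgroup.closure_le]
  rintro _ (rfl | rfl | rfl)
  · exact ⟨Multiplicative.ofAdd (0, ((1 : ℤ) : ZMod 4), 0), by simp [f, lift, zmultiplesHom_apply, -Int.cast_one]⟩
  · exact ⟨Multiplicative.ofAdd (0, 0, ((1 : ℤ) : ZMod 4)), by simp [f, lift, zmultiplesHom_apply, -Int.cast_one]⟩
  · exact ⟨Multiplicative.ofAdd (((1 : ℤ) : ZMod 3), 0, 0), by simp [f, lift, zmultiplesHom_apply, -Int.cast_one]⟩

end CfsgLib.SchurMult.PSLThreeFour
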