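import Cfsg.Agent.Lib.SchurMult.PSLThreeFour.Map
import Cfsg.Agent.Lib.SchurMult.PSLThreeFour.Upper
import Cfsg.Agent.Lib.ClassicalLinear.Simple

/-!
A stem extension of `PSL₃(4)` with kernel of order 48: the pullback of the twelvefold cover with its twist by
the diagonal automorphism.
-/

set_option autoImplicit false
set_option linter.unusedSectionVars false
set_option linter.style.haveILetI false
set_option maxRecDepth 100000

namespace CfsgLib.SchurMult.PSLThreeFour

open Matrix
open CfsgLib.InvChar.PSLThreeFour CfsgLib.SchurMult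
open scoped commutatorElement

universe u

variable {F : Type u} [Field F] [Fintype F]

attribute [local irreducible] el tables

namespace Four

variable (q : Four F)

/-- The diagonal matrix of the twist. -/
def D : Matrix (Fin 3) (Fin 3) F := Matrix.diagonal ![q.w, 1, 1]

/-- Its inverse. -/
def D' : Matrix (Fin 3) (Fin 3) F := Matrix.diagonal ![q.w + 1, 1, 1]

theorem w_mul : q.w * (q.w + 1) = 1 := by linear_combination q.eq + q.w * q.two

theorem D_mul : q.D * q.D' = 1 := by
  rw [D, D', Matrix.diagonal_mul_diagonal, ← Matrix.diagonal_one]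
  congr 1; funext i; fin_cases i <;> simp [q.w_mul]

theorem D'_mul : q.D' * q.D = 1 := by
  rw [D, D', Matrix.diagonal_mul_diagonal, ← Matrix.diagonal_one]
  congr 1; funext i; fin_cases i <;> simp [mul_comm, q.w_mul]

/-- The diagonal automorphism of `SL₃`. -/
def twistSL : Matrix.SpecialLinearGroup (Fin 3) F ≃* Matrix.SpecialLinearGroup (Fin 3) F where
  toFun M := ⟨q.D * M.1 * q.D', by
    rw [Matrix.det_mul, Matrix.det_mul, M.2, mul_one, ← Matrix.det_mul, q.D_mul, Matrix.det_one]⟩
  invFun M := ⟨q.D' * M.1 * q.D, by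
    rw [Matrix.det_mul, Matrix.det_mul, M.2, mul_one, ← Matrix.det_mul, q.D'_mul, Matrix.det_one]⟩
  left_inv M := Subtype.ext (by
    show q.D' * (q.D * M.1 * q.D') * q.D = M.1
    rw [mul_assoc, mul_assoc (q.D * M.1), q.D'_mul, mul_one, ← mul_assoc, q.D'_mul, one_mul])
  right_inv M := Subtype.ext (by
    show q.D * (q.D' * M.1 * q.D) * q.D' = M.1
    rw [mul_assoc, mul_assoc (q.D' * M.1), q.D_mul, mul_one, ← mul_assoc, q.D_mul, one_mul])
  map_mul' M N := Subtype.ext (by
    show q.D * (M.1 * N.1) * q.D' = (q.D * M.1 * q.D') * (q.D * N.1 * q.D')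
    calc q.D * (M.1 * N.1) * q.D' = q.D * M.1 * (q.D' * q.D) * N.1 * q.D' := by
          simp only [q.D'_mul, mul_one, mul_assoc]
      _ = _ := by simp only [mul_assoc])

theorem twistSL_val (M : Matrix.SpecialLinearGroup (Fin 3) F) :
    (q.twistSL M : Matrix (Fin 3) (Fin 3) F) = q.D * (M : Matrix (Fin 3) (Fin 3) F) * q.D' := rfl

theorem map_center_twist :
    (Subgroup.center (Matrix.SpecialLinearGroup (Fin 3) F)).map
      ((q.twistSL : _ ≃* _) : _ →* Matrix.SpecialLinearGroup (Fin 3) F) = Subgroup.center _ := by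
  ext y
  simp only [Subgroup.mem_map, Subgroup.mem_center_iff]
  constructor
  · rintro ⟨x, hx, rfl⟩ g
    have h := congrArg q.twistSL (hx (q.twistSL.symm g))
    rw [map_mul, map_mul, MulEquiv.apply_symm_apply] at h
    exact h
  · intro hy
    refine ⟨q.twistSL.symm y, fun g => ?_, q.twistSL.apply_symm_apply y⟩
    apply q.twistSL.injective
    rw [map_mul, map_mul, MulEquiv.apply_symm_apply]
    exact hy _

/-- The diagonal automorphism of `PSL₃`. -/
noncomputable def twist :
    Matrix.ProjectiveSpecialLinearGroup (Fin 3) F ≃* Matrix.ProjectiveSpecialLinearGroup (Fin 3) F :=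
  QuotientGroup.congr _ _ q.twistSL q.map_center_twist

/-- A named element in the cover. -/
noncomputable def nm (i : ℕ) (hi : i < 12) : Cover := ⟨el i, named_mem hi⟩

/-- The pairs with related images. -/
noncomputable def Pair : Subgroup (Cover × Cover) :=
  MonoidHom.eqLocus (q.toPSL.comp (MonoidHom.fst Cover Cover))
    (q.twist.toMonoidHom.comp (q.toPSL.comp (MonoidHom.snd Cover Cover)))

theorem pair_mem {i j : ℕ} (hi : i < 12) (hj : j < 12) (h : q.namedSL i = q.twistSL (q.namedSL j)) :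
    (nm i hi, nm j hj) ∈ q.Pair := by
  show q.toPSL (nm i hi) = q.twist (q.toPSL (nm j hj))
  simp only [toPSL, MonoidHom.comp_apply, nm, q.toSL_named hi, q.toSL_named hj, h]
  rfl

set_option maxHeartbeats 2000000 in
theorem twist_eqs : q.namedSL 0 = q.twistSL (q.namedSL 2) ∧ q.namedSL 1 = q.twistSL (q.namedSL 0) ∧
    q.namedSL 3 = q.twistSL (q.namedSL 3) ∧ q.namedSL 4 = q.twistSL (q.namedSL 4) ∧
    q.namedSL 8 = q.twistSL (q.namedSL 8) ∧ q.namedSL 9 = q.twistSL (q.namedSL 10) := by
  have hw := q.w_mul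
  have hw' : (q.w + 1) * q.w = 1 := by rw [mul_comm]; exact hw
  refine ⟨?_, ?_, ?_, ?_, ?_, ?_⟩ <;> refine Subtype.ext (Eq.trans ?_ (q.twistSL_val _).symm) <;> ext i j <;>
    fin_cases i <;> fin_cases j <;>
    simp [namedSL, D, D', entry, mats, val, Matrix.mul_apply, Fin.sum_univ_three, hw]

/-- The map of the pairs onto the simple group. -/
noncomputable def proj : q.Pair →* Matrix.ProjectiveSpecialLinearGroup (Fin 3) F :=
  (q.toPSL.comp (MonoidHom.fst Cover Cover)).comp q.Pair.subtype

theorem proj_surjective : Function.Surjective q.proj := fun x => by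
  obtain ⟨g, hg⟩ := q.surjective_toPSL x
  obtain ⟨h, hh⟩ := q.surjective_toPSL (q.twist.symm x)
  exact ⟨⟨(g, h), by show q.toPSL g = q.twist (q.toPSL h); rw [hg, hh, MulEquiv.apply_symm_apply]⟩, hg⟩

theorem proj_ker_le : q.proj.ker ≤ Subgroup.center q.Pair := by
  intro p hp
  have h1 : q.toPSL p.1.1 = 1 := hp
  have h2 : q.toPSL p.1.2 = 1 := by
    have h : q.toPSL p.1.1 = q.twist (q.toPSL p.1.2) := p.2
    rw [h1] at h
    exact q.twist.injective (h.symm.trans (map_one _).symm)
  have c1 := Subgroup.mem_center_iff.1 (q.ker_le_center h1)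
  have c2 := Subgroup.mem_center_iff.1 (q.ker_le_center h2)
  exact Subgroup.mem_center_iff.2 fun r => Subtype.ext (Prod.ext (c1 _) (c2 _))

include q in
theorem perfect_psl : commutator (Matrix.ProjectiveSpecialLinearGroup (Fin 3) F) = ⊤ := by
  haveI := CfsgLib.ClassicalLinear.isSimpleGroup_psl_of_three_le (ι := Fin 3) (F := F) (by simp)
  refine (IsSimpleGroup.eq_bot_or_eq_top_of_normal _ inferInstance).resolve_left fun h => ?_
  have hm : ⁅(ut 1 0 0 : Matrix.ProjectiveSpecialLinearGroup (Fin 3) F), (ut 0 1 0 : Matrix.ProjectiveSpecialLinearGroup (Fin 3) F)⁆ ∈ commutator _ := by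
    rw [commutator_def]; exact Subgroup.commutator_mem_commutator trivial trivial
  rw [h, Subgroup.mem_bot, commutatorElement_eq_one_iff_mul_comm, ut_mul, ut_mul] at hm
  simpa using (ut_inj hm).2.2

/-- The cover. -/
noncomputable def cov : commutator q.Pair →* Matrix.ProjectiveSpecialLinearGroup (Fin 3) F :=
  q.proj.comp (commutator q.Pair).subtype

theorem cov_surjective : Function.Surjective q.cov := fun x => by
  have h : x ∈ (commutator q.Pair).map q.proj := by
    rw [map_commutator_eq, MonoidHom.range_eq_top.2 q.proj_surjective, ← commutator_def, q.perfect_psl]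
    trivial
  obtain ⟨y, hy, he⟩ := h
  exact ⟨⟨y, hy⟩, he⟩

theorem cov_perfect : commutator (commutator q.Pair) = ⊤ := by
  have hs : ∀ g : q.Pair, ∃ x, q.proj ((commutator q.Pair).subtype x) = q.proj g := fun g => q.cov_surjective _
  rw [eq_top_iff]
  intro x _
  have hle : commutator q.Pair ≤ (commutator (commutator q.Pair)).map (commutator q.Pair).subtype := by
    refine le_of_eq_of_le (commutator_def q.Pair) (Subgroup.commutator_le.2 ?_)
    intro a _ b _
    obtain ⟨a', ha⟩ := hs a
    obtain ⟨b', hb⟩ := hs b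
    refine ⟨⁅a', b'⁆, ?_, ?_⟩
    · show _ ∈ commutator (commutator q.Pair : Subgroup q.Pair)
      rw [commutator_def (commutator q.Pair : Subgroup q.Pair)]
      exact Subgroup.commutator_mem_commutator trivial trivial
    · rw [map_commutatorElement]; exact comm_eq_of_map_eq q.proj_ker_le ha hb
  obtain ⟨y, hy, he⟩ := hle x.2
  exact (Subtype.ext he : y = x) ▸ hy

theorem cov_isStem : Cfsg.IsStemExtension q.cov := by
  refine ⟨q.cov_surjective, fun z hz => ?_, ?_⟩
  · have := Subgroup.mem_center_iff.1 (q.proj_ker_le (x := (z : q.Pair)) hz)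
    exact Subgroup.mem_center_iff.2 fun g => Subtype.ext (this g)
  · rw [q.cov_perfect]; exact le_top

/-- A pair of named elements. -/
noncomputable def pr {i j : ℕ} (hi : i < 12) (hj : j < 12) (h : q.namedSL i = q.twistSL (q.namedSL j)) : q.Pair :=
  ⟨(nm i hi, nm j hj), q.pair_mem hi hj h⟩

/-- The lifts in the pairs. -/
noncomputable def X₁ : q.Pair := q.pr (i := 0) (j := 2) (by norm_num) (by norm_num) q.twist_eqs.1
/-- The lifts in the pairs. -/
noncomputable def Xw : q.Pair := q.pr (i := 1) (j := 0) (by norm_num) (by norm_num) q.twist_eqs.2.1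
/-- The lifts in the pairs. -/
noncomputable def Y₁ : q.Pair := q.pr (i := 3) (j := 3) (by norm_num) (by norm_num) q.twist_eqs.2.2.1
/-- The lifts in the pairs. -/
noncomputable def Yw : q.Pair := q.pr (i := 4) (j := 4) (by norm_num) (by norm_num) q.twist_eqs.2.2.2.1
/-- The lifts in the pairs. -/
noncomputable def T : q.Pair := q.pr (i := 8) (j := 8) (by norm_num) (by norm_num) q.twist_eqs.2.2.2.2.1
/-- The lifts in the pairs. -/
noncomputable def P : q.Pair := q.pr (i := 9) (j := 10) (by norm_num) (by norm_num) q.twist_eqs.2.2.2.2.2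

/-- The three kernel elements. -/
noncomputable def kel : Fin 3 → q.Pair :=
  ![⁅q.X₁, q.Yw⁆ * ⁅q.Y₁, q.Xw⁆, ⁅q.X₁, q.Y₁⁆ * ⁅q.X₁, q.Yw⁆ * ⁅q.Xw, q.Yw⁆, ⁅q.P, q.T⁆]

theorem kel_mem (t : Fin 3) : q.kel t ∈ commutator q.Pair := by
  have h : ∀ a b : q.Pair, ⁅a, b⁆ ∈ commutator q.Pair := fun a b => by
    rw [commutator_def]; exact Subgroup.commutator_mem_commutator trivial trivial
  fin_cases t
  exacts [mul_mem (h _ _) (h _ _), mul_mem (mul_mem (h _ _) (h _ _)) (h _ _), h _ _]

theorem comm_word {a b : ℕ} (ha : a < 12) (hb : b < 12) :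
    lprod el [a, b, 12 + a, 12 + b] = ((⁅nm a ha, nm b hb⁆ : Cover) : Equiv.Perm (Fin 543)) := by
  simp [lprod, nm, inv_named ha, inv_named hb, commutatorElement_def, mul_assoc]

theorem kel_word (t : Fin 3) :
    (((q.kel t).1.1 : Cover) : Equiv.Perm (Fin 543)) = lprod el ((words.getD 0 []).getD t []) ∧
    (((q.kel t).1.2 : Cover) : Equiv.Perm (Fin 543)) = lprod el ((words.getD 1 []).getD t []) := by
  have happ : ∀ a b c d : ℕ, ∀ l, lprod el ([a, b, c, d] ++ l) = lprod el [a, b, c, d] * lprod el l :=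
    fun a b c d l => lprod_append _ _ _
  fin_cases t <;>
    simp [kel, words, X₁, Xw, Y₁, Yw, T, P, pr, lprod, nm, inv_named, commutatorElement_def, mul_assoc] <;>
    simp [← inv_named]

theorem kel_pow (t : Fin 3) :
    (((q.kel t).1.1 : Cover) : Equiv.Perm (Fin 543)) = el 11 ^ (exps.getD 0 []).getD t 0 ∧
    (((q.kel t).1.2 : Cover) : Equiv.Perm (Fin 543)) = el 11 ^ (exps.getD 1 []).getD t 0 := by
  rw [(q.kel_word t).1, (q.kel_word t).2, ← lprod_replicate, ← lprod_replicate]
  exact ⟨eq_of_same (word_facts.2.2.2.2 0 (by norm_num) t t.2), eq_of_same (word_facts.2.2.2.2 1 (by norm_num) t t.2)⟩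

theorem kel_ker (t : Fin 3) : q.proj (q.kel t) = 1 := by
  show q.toPSL (q.kel t).1.1 = 1
  have e : (q.kel t).1.1 = nm 11 (by norm_num) ^ (exps.getD 0 []).getD t 0 := Subtype.ext (q.kel_pow t).1
  rw [e, map_pow, show q.toPSL (nm 11 (by norm_num)) = 1 from q.toPSL_z, one_pow]

theorem exps_inj : ∀ a b : Fin 3 × Fin 4 × Fin 4,
    (a.2.1 * 9 + a.1 * 8 : ℕ) % 12 = (b.2.1 * 9 + b.1 * 8 : ℕ) % 12 →
    (a.2.2 * 9 + a.1 * 8 : ℕ) % 12 = (b.2.2 * 9 + b.1 * 8 : ℕ) % 12 → a = b := by decide +kernel

theorem pow_mod_eq {a b : ℕ} (h : el 11 ^ a = el 11 ^ b) : a % 12 = b % 12 := by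
  have red : ∀ n, el 11 ^ n = el 11 ^ (n % 12) := fun n => by
    conv_lhs => rw [← Nat.mod_add_div n 12, pow_add, pow_mul, z_pow_twelve, one_pow, mul_one]
  rw [red a, red b] at h
  rcases Nat.le_total (a % 12) (b % 12) with hl | hl
  · have h1 : el 11 ^ (b % 12 - a % 12) = 1 := by
      apply mul_left_cancel (a := el 11 ^ (a % 12))
      rw [← pow_add, Nat.add_sub_cancel' hl, h, mul_one]
    have := z_pow_eq_one h1
    omega
  · have h1 : el 11 ^ (a % 12 - b % 12) = 1 := by
      apply mul_left_cancel (a := el 11 ^ (b % 12))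
      rw [← pow_add, Nat.add_sub_cancel' hl, h, mul_one]
    have := z_pow_eq_one h1
    omega

theorem card_ker_ge : 48 ≤ Nat.card q.cov.ker := by
  let f : Fin 3 × Fin 4 × Fin 4 → q.cov.ker := fun a =>
    ⟨⟨q.kel 0 ^ (a.2.1 : ℕ) * q.kel 1 ^ (a.2.2 : ℕ) * q.kel 2 ^ (a.1 : ℕ),
      mul_mem (mul_mem (pow_mem (q.kel_mem 0) _) (pow_mem (q.kel_mem 1) _)) (pow_mem (q.kel_mem 2) _)⟩, by
      show q.proj (q.kel 0 ^ (a.2.1 : ℕ) * q.kel 1 ^ (a.2.2 : ℕ) * q.kel 2 ^ (a.1 : ℕ)) = 1
      simp [q.kel_ker]⟩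
  have hf : Function.Injective f := by
    intro a b hab
    have h := congrArg (fun z : q.cov.ker => ((z.1 : commutator q.Pair) : q.Pair)) hab
    have h1 := congrArg (fun z : q.Pair => ((z.1.1 : Cover) : Equiv.Perm (Fin 543))) h
    have h2 := congrArg (fun z : q.Pair => ((z.1.2 : Cover) : Equiv.Perm (Fin 543))) h
    simp only [f, Subgroup.coe_mul, Subgroup.coe_pow, Prod.fst_mul, Prod.snd_mul, Prod.pow_fst, Prod.pow_snd,
      (q.kel_pow _).1, (q.kel_pow _).2] at h1 h2
    have e0 : ∀ n, el 11 ^ 0 ^ n = el 11 ^ 0 ^ n := fun n => rfl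
    simp [exps, ← pow_mul, ← pow_add] at h1 h2
    refine exps_inj a b ?_ ?_
    · have := pow_mod_eq h1; omega
    · have := pow_mod_eq h2; omega
  simpa using Nat.card_le_card_of_injective f hf

end Four

/-- The Schur multiplier of `PSL₃(4)`. -/
theorem hasSchurMultiplier (hF : Fintype.card F = 4) :
    Cfsg.HasSchurMultiplier (Matrix.ProjectiveSpecialLinearGroup (Fin 3) F)
      (Multiplicative (ZMod 3 × ZMod 4 × ZMod 4)) := by
  obtain ⟨q⟩ := exists_four (F := F) hF
  let e : ULift.{u} (commutator q.Pair) ≃* commutator q.Pair := MulEquiv.ulift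
  have hst : Cfsg.IsStemExtension (q.cov.comp e.toMonoidHom) := by
    refine ⟨q.cov_surjective.comp e.surjective, fun z hz => ?_, fun z _ => ?_⟩
    · refine Subgroup.mem_center_iff.2 fun g => e.injective ?_
      rw [map_mul, map_mul]
      exact Subgroup.mem_center_iff.1 (q.cov_isStem.2.1 (x := e z) hz) _
    · have h : e z ∈ commutator (commutator q.Pair : Subgroup q.Pair) := by rw [q.cov_perfect]; trivial
      have hm : (commutator (commutator q.Pair : Subgroup q.Pair)).map e.symm.toMonoidHom ≤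
          commutator (ULift.{u} (commutator q.Pair)) := by
        rw [map_commutator_eq]
        exact Subgroup.commutator_mono le_top le_top
      exact hm ⟨_, h, e.symm_apply_apply z⟩
  refine ⟨⟨ULift.{u} (commutator q.Pair), inferInstance, inferInstance, q.cov.comp e.toMonoidHom, hst, ?_⟩,
    fun Γ _ _ σ hσ => exists_surjective hσ hF⟩
  obtain ⟨π, hπ⟩ := exists_surjective hst hF
  have hge : 48 ≤ Nat.card (q.cov.comp e.toMonoidHom).ker := by
    refine q.card_ker_ge.trans (Nat.card_le_card_of_injective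
      (fun z : q.cov.ker => (⟨e.symm z.1, by
        show q.cov (e (e.symm z.1)) = 1
        rw [MulEquiv.apply_symm_apply]; exact z.2⟩ : (q.cov.comp e.toMonoidHom).ker)) fun a b h => ?_)
    exact Subtype.ext (e.symm.injective (congrArg Subtype.val h))
  have h48 : Nat.card (Multiplicative (ZMod 3 × ZMod 4 × ZMod 4)) = 48 := by simp
  have hb : Function.Bijective π := (Nat.bijective_iff_surjective_and_card _).2
    ⟨hπ, le_antisymm (by rw [h48]; exact hge) (Nat.card_le_card_of_surjective π hπ)⟩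
  exact ⟨(MulEquiv.ofBijective π hb).symm⟩

end CfsgLib.SchurMult.PSLThreeFour
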