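import Cfsg.Agent.Lib.SchurMult.PSLThreeFour.CertE
import Cfsg.Agent.Lib.SchurMult.PSLThreeFour.Cover
import Cfsg.Agent.Lib.SchurMult.PSLThreeFour.Bound

/-!
The map of the twelvefold cover onto `SL₃` of a field with four elements.
-/

set_option autoImplicit false
set_option linter.unusedSectionVars false
set_option linter.style.haveILetI false
set_option maxRecDepth 100000

namespace CfsgLib.SchurMult.PSLThreeFour

open Matrix

universe u

variable {F : Type u} [Field F] [Fintype F]

/-- A field with four elements together with a primitive element. -/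
structure Four (F : Type u) [Field F] [Fintype F] where
  /-- the primitive element -/
  w : F
  /-- its equation -/
  eq : w * w = w + 1
  /-- four elements -/
  card : Fintype.card F = 4

theorem exists_four (hF : Fintype.card F = 4) : Nonempty (Four F) := by
  obtain ⟨w, -, -, -, hw, -, -⟩ := CfsgLib.InvChar.SymThree.four_basis hF
  exact ⟨⟨w, hw, hF⟩⟩

namespace Four

variable (q : Four F)

/-- The value of a code. -/
def val (a : ℕ) : F := [0, 1, q.w, q.w + 1].getD a 0

include q in
theorem two : (1 + 1 : F) = 0 := (field_cases q.card q.eq).1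

theorem val_xor {a b : ℕ} (ha : a < 4) (hb : b < 4) : q.val (a ^^^ b) = q.val a + q.val b := by
  have h2 := q.two
  interval_cases a <;> interval_cases b <;>
    simp [val, List.getD] <;> first
      | linear_combination -h2
      | linear_combination -(q.w) * h2
      | linear_combination -(q.w + 1) * h2
      | ring1

theorem val_mul {a b : ℕ} (ha : a < 4) (hb : b < 4) : q.val (mulT a b) = q.val a * q.val b := by
  have h2 := q.two
  have hw := q.eq
  interval_cases a <;> interval_cases b <;>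
    simp [val, mulT, List.getD] <;> first
      | linear_combination -hw
      | linear_combination -hw - q.w * h2 - h2
      | linear_combination -hw - q.w * h2
      | linear_combination -hw - h2
      | ring1

theorem val_injective {a b : ℕ} (ha : a < 4) (hb : b < 4) (h : q.val a = q.val b) : a = b := by
  obtain ⟨h2, h0, h1, -⟩ := field_cases q.card q.eq
  have h10 : q.w + 1 ≠ 0 := fun e => h1 (by linear_combination e - h2)
  interval_cases a <;> interval_cases b <;> simp [val, List.getD, eq_comm] at h ⊢ <;> first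
    | exact h0 h
    | exact h0 h.symm
    | exact h1 h
    | exact h1 h.symm
    | exact h10 h
    | exact h10 h.symm

theorem exists_val (x : F) : ∃ a < 4, q.val a = x := by
  rcases (field_cases q.card q.eq).2.2.2 x with rfl | rfl | rfl | rfl
  exacts [⟨0, by norm_num, rfl⟩, ⟨1, by norm_num, rfl⟩, ⟨2, by norm_num, rfl⟩, ⟨3, by norm_num, rfl⟩]

/-- The vector of a code. -/
def vec (c : ℕ) : Fin 3 → F := fun j => q.val (coord c j)

theorem coord_lt (c j : ℕ) : coord c j < 4 := Nat.mod_lt _ (by norm_num)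

theorem vec_injective {c d : ℕ} (hc : c < 64) (hd : d < 64) (h : q.vec c = q.vec d) : c = d := by
  have e : ∀ j : Fin 3, coord c j = coord d j := fun j =>
    q.val_injective (coord_lt _ _) (coord_lt _ _) (congrFun h j)
  have e0 := e 0
  have e1 := e 1
  have e2 := e 2
  simp [coord] at e0 e1 e2
  omega

theorem mulT_lt : ∀ a < 4, ∀ b < 4, mulT a b < 4 := by decide +kernel

theorem xor_lt {a b : ℕ} (ha : a < 4) (hb : b < 4) : a ^^^ b < 4 :=
  Nat.xor_lt_two_pow (n := 2) ha hb

theorem vec_pack {a b c : ℕ} (ha : a < 4) (hb : b < 4) (hc : c < 4) :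
    q.vec (a + 4 * b + 16 * c) = ![q.val a, q.val b, q.val c] := by
  funext j
  fin_cases j <;> simp [vec, coord] <;> congr 1 <;> omega

theorem vec_smulC {s : ℕ} (hs : s < 4) (c : ℕ) : q.vec (smulC s c) = q.val s • q.vec c := by
  rw [smulC, q.vec_pack (mulT_lt _ hs _ (coord_lt _ _)) (mulT_lt _ hs _ (coord_lt _ _))
    (mulT_lt _ hs _ (coord_lt _ _))]
  funext j
  fin_cases j <;> simp [vec, q.val_mul hs (coord_lt _ _)]

theorem vec_matApp {m : List ℕ} (hm : ∀ i j, entry m i j < 4) (c : ℕ) :
    q.vec (matApp m c) = (Matrix.of fun i j : Fin 3 => q.val (entry m i j)) *ᵥ q.vec c := by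
  have hp : ∀ i j, mulT (entry m i j) (coord c j) < 4 := fun i j => mulT_lt _ (hm i j) _ (coord_lt _ _)
  have hr : ∀ i, rowApp m c i < 4 := fun i => xor_lt (xor_lt (hp i 0) (hp i 1)) (hp i 2)
  have hv : ∀ i, q.val (rowApp m c i) = q.val (entry m i 0) * q.val (coord c 0) +
      q.val (entry m i 1) * q.val (coord c 1) + q.val (entry m i 2) * q.val (coord c 2) := fun i => by
    rw [rowApp, q.val_xor (xor_lt (hp i 0) (hp i 1)) (hp i 2), q.val_xor (hp i 0) (hp i 1),
      q.val_mul (hm i 0) (coord_lt _ _), q.val_mul (hm i 1) (coord_lt _ _), q.val_mul (hm i 2) (coord_lt _ _)]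
  rw [matApp, q.vec_pack (hr 0) (hr 1) (hr 2)]
  funext i
  fin_cases i <;> simp [Matrix.mulVec, dotProduct, Fin.sum_univ_three, hv, vec]

theorem det_code {m : List ℕ} (hm : ∀ i j, entry m i j < 4) (h : detT m = 1) :
    (Matrix.of fun i j : Fin 3 => q.val (entry m i j)).det = 1 := by
  have hneg : ∀ x : F, -x = x := fun x => by linear_combination (-x) * q.two
  have hp : ∀ a b c d e f, mulT (mulT (entry m a b) (entry m c d)) (entry m e f) < 4 :=
    fun a b c d e f => mulT_lt _ (mulT_lt _ (hm a b) _ (hm c d)) _ (hm e f)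
  have hv : ∀ a b c d e f, q.val (mulT (mulT (entry m a b) (entry m c d)) (entry m e f)) =
      q.val (entry m a b) * q.val (entry m c d) * q.val (entry m e f) := fun a b c d e f => by
    rw [q.val_mul (mulT_lt _ (hm a b) _ (hm c d)) (hm e f), q.val_mul (hm a b) (hm c d)]
  have h1 := congrArg q.val h
  rw [detT, q.val_xor (xor_lt (xor_lt (xor_lt (xor_lt (hp ..) (hp ..)) (hp ..)) (hp ..)) (hp ..)) (hp ..),
    q.val_xor (xor_lt (xor_lt (xor_lt (hp ..) (hp ..)) (hp ..)) (hp ..)) (hp ..),
    q.val_xor (xor_lt (xor_lt (hp ..) (hp ..)) (hp ..)) (hp ..),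
    q.val_xor (xor_lt (hp ..) (hp ..)) (hp ..), q.val_xor (hp ..) (hp ..),
    hv, hv, hv, hv, hv, hv] at h1
  rw [Matrix.det_fin_three]
  simp only [Matrix.of_apply, sub_eq_add_neg, hneg]
  exact h1.trans (by simp [val])

end Four

theorem model_facts : ∀ i < 12, detT (mats.getD i []) = 1 ∧ (∀ a b, entry (mats.getD i []) a b < 4) ∧
    ∀ u < 63, tables.img i u < 63 ∧ tables.img i u + 1 = matApp (mats.getD i []) (u + 1) := by
  have h := modelOK_eq
  simp only [modelOK, List.all_eq_true, List.mem_range, Bool.and_eq_true, Nat.blt_eq] at h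
  intro i hi
  obtain ⟨⟨h1, h2⟩, h3⟩ := h i hi
  refine ⟨Nat.eq_of_beq_eq_true h1, fun a b => ?_, fun u hu => ⟨(h3 u hu).1, Nat.eq_of_beq_eq_true (h3 u hu).2⟩⟩
  rw [entry]
  by_cases hl : 3 * a + b < (mats.getD i []).length
  · rw [List.getD_eq_getElem _ _ hl]; exact h2 _ (List.getElem_mem hl)
  · rw [List.getD_eq_default _ _ (by omega)]; norm_num

/-- The point with the given number. -/
def pnt (u : Fin 63) : Fin 543 := ⟨u, by omega⟩

/-- The image of a point. -/
def act (g : Equiv.Perm (Fin 543)) (u : Fin 63) : ℕ := (g (pnt u) : ℕ)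

namespace Four

variable (q : Four F)

/-- The matrix of a named element. -/
def namedSL (i : ℕ) : Matrix.SpecialLinearGroup (Fin 3) F :=
  if h : i < 12 then ⟨Matrix.of fun a b : Fin 3 => q.val (entry (mats.getD i []) a b),
    q.det_code (model_facts i h).2.1 (model_facts i h).1⟩ else 1

/-- A linear map describes a permutation on the vectors. -/
def Models (g : Equiv.Perm (Fin 543)) (M : Matrix.SpecialLinearGroup (Fin 3) F) : Prop :=
  ∀ u : Fin 63, act g u < 63 ∧ (M : Matrix (Fin 3) (Fin 3) F) *ᵥ q.vec (u + 1) = q.vec (act g u + 1)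

theorem models_one : q.Models 1 1 := fun u => ⟨u.2, by simp [act, pnt]⟩

theorem models_mul {g h : Equiv.Perm (Fin 543)} {M N : Matrix.SpecialLinearGroup (Fin 3) F}
    (hg : q.Models g M) (hh : q.Models h N) : q.Models (g * h) (M * N) := fun u => by
  have e : act (g * h) u = act g ⟨act h u, (hh u).1⟩ := rfl
  refine ⟨e ▸ (hg _).1, ?_⟩
  rw [e, Matrix.SpecialLinearGroup.coe_mul, ← Matrix.mulVec_mulVec]
  exact (congrArg (fun x => (M : Matrix (Fin 3) (Fin 3) F) *ᵥ x) (hh u).2).trans (hg ⟨act h u, (hh u).1⟩).2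

theorem models_named {i : ℕ} (hi : i < 12) : q.Models (el i) (q.namedSL i) := fun u => by
  have e : act (el i) u = tables.img i u := el_apply (by omega) (pnt u)
  obtain ⟨h1, h2⟩ := (model_facts i hi).2.2 u u.2
  rw [e, h2, q.vec_matApp (model_facts i hi).2.1]
  refine ⟨h1, ?_⟩
  simp [namedSL, hi]

theorem models_unique {g : Equiv.Perm (Fin 543)} {M N : Matrix.SpecialLinearGroup (Fin 3) F}
    (hM : q.Models g M) (hN : q.Models g N) : M = N := by
  apply Subtype.ext
  have key : ∀ (u : Fin 63) (j : Fin 3), q.vec (u + 1) = Pi.single j 1 → ∀ i,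
      (M : Matrix (Fin 3) (Fin 3) F) i j = (N : Matrix (Fin 3) (Fin 3) F) i j := by
    intro u j hu i
    have := congrFun ((hM u).2.trans (hN u).2.symm) i
    simpa [hu, Matrix.mulVec_single_one] using this
  ext i j
  fin_cases j
  · exact key ⟨0, by norm_num⟩ 0 (by funext k; fin_cases k <;> simp [vec, coord, val]) i
  · exact key ⟨3, by norm_num⟩ 1 (by funext k; fin_cases k <;> simp [vec, coord, val]) i
  · exact key ⟨15, by norm_num⟩ 2 (by funext k; fin_cases k <;> simp [vec, coord, val]) i

theorem exists_models {g : Equiv.Perm (Fin 543)} (hg : g ∈ Cover) : ∃ M, q.Models g M :=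
  Gk_induction (k := 0) (p := fun g => ∃ M, q.Models g M) ⟨1, q.models_one⟩
    (fun i hi g _ ⟨M, hM⟩ => ⟨_, q.models_mul (q.models_named (gens_lt hi)) hM⟩) hg

/-- The linear map of an element of the cover. -/
noncomputable def toSL : Cover →* Matrix.SpecialLinearGroup (Fin 3) F :=
  MonoidHom.mk' (fun g => (q.exists_models g.2).choose) fun g h =>
    q.models_unique (q.exists_models (g * h).2).choose_spec
      (q.models_mul (q.exists_models g.2).choose_spec (q.exists_models h.2).choose_spec)

theorem models_toSL (g : Cover) : q.Models g (q.toSL g) := (q.exists_models g.2).choose_spec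

theorem toSL_named {i : ℕ} (hi : i < 12) : q.toSL ⟨el i, named_mem hi⟩ = q.namedSL i :=
  q.models_unique (q.models_toSL _) (q.models_named hi)

/-- The map onto the simple group. -/
noncomputable def toPSL : Cover →* Matrix.ProjectiveSpecialLinearGroup (Fin 3) F :=
  (QuotientGroup.mk' _).comp q.toSL

end Four

theorem line_facts : (∀ c < 64, c ≠ 0 → ∀ s < 4, s ≠ 0 → lineC (smulC s c) = lineC c ∧ smulC s c < 64) ∧
    ∀ c < 64, c ≠ 0 → ∀ d < 64, d ≠ 0 → lineC c = lineC d → ∃ s, (s = 1 ∨ s = 2 ∨ s = 3) ∧ smulC s c = d := by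
  have h := lineOK_eq
  simp only [lineOK, List.all_eq_true, List.mem_range, Bool.and_eq_true, Bool.or_eq_true, beq_iff_eq,
    Nat.blt_eq, Bool.not_eq_true', List.any_eq_true, List.mem_cons, List.not_mem_nil, or_false] at h
  refine ⟨fun c hc hc0 s hs hs0 => ?_, fun c hc hc0 d hd hd0 he => ?_⟩
  · obtain ⟨⟨h1, h2⟩, -⟩ := (h.1 c hc s hs).resolve_left (not_or.2 ⟨hc0, hs0⟩)
    exact ⟨Nat.eq_of_beq_eq_true h1, h2⟩
  · rcases h.2 c hc d hd with ((h1 | h1) | h1) | ⟨s, hs, h1⟩
    · exact absurd h1 hc0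
    · exact absurd h1 hd0
    · simp [he] at h1
    · exact ⟨s, hs, Nat.eq_of_beq_eq_true h1⟩

namespace Four

variable (q : Four F)

theorem line_of_smul {u v : Fin 63} {r : F} (hr : r ≠ 0) (h : q.vec (v + 1) = r • q.vec (u + 1)) :
    lineP v = lineP u := by
  obtain ⟨s, hs, rfl⟩ := q.exists_val r
  have hs0 : s ≠ 0 := fun e => hr (by rw [e]; rfl)
  obtain ⟨h1, h2⟩ := line_facts.1 (u + 1) (by omega) (by omega) s hs hs0
  rw [← q.vec_smulC hs] at h
  rw [lineP, lineP, q.vec_injective (by omega) h2 h, h1]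

theorem toPSL_eq_imp {g h : Cover} (e : q.toPSL g = q.toPSL h) (u : Fin 63) :
    lineP (act g u) = lineP (act h u) := by
  obtain ⟨r, hr3, hr⟩ := Matrix.SpecialLinearGroup.mem_center_iff.1 (QuotientGroup.eq.1 e)
  rw [Fintype.card_fin] at hr3
  have hM : ((q.toSL h : Matrix.SpecialLinearGroup (Fin 3) F) : Matrix (Fin 3) (Fin 3) F) =
      (q.toSL g : Matrix (Fin 3) (Fin 3) F) * Matrix.scalar (Fin 3) r := by
    rw [hr, ← Matrix.SpecialLinearGroup.coe_mul, mul_inv_cancel_left]
  obtain ⟨hg1, hg2⟩ := q.models_toSL g u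
  obtain ⟨hh1, hh2⟩ := q.models_toSL h u
  have hr0 : r ≠ 0 := fun e => by rw [e] at hr3; simp at hr3
  have key : q.vec (act h u + 1) = r • q.vec (act g u + 1) := by
    rw [← hh2, hM, ← Matrix.mulVec_mulVec, ← hg2, Matrix.scalar_apply, ← Matrix.mulVec_smul]
    congr 1
    funext j
    simp [Matrix.mulVec_diagonal]
  exact (q.line_of_smul (u := ⟨_, hg1⟩) (v := ⟨_, hh1⟩) hr0 key).symm

include q in
theorem line_congr (g : Cover) {u v : Fin 63} (h : lineP u = lineP v) : lineP (act g u) = lineP (act g v) := by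
  obtain ⟨s, hs, e⟩ := line_facts.2 (u + 1) (by omega) (by omega) (v + 1) (by omega) (by omega) h
  have hs4 : s < 4 := by omega
  have hs0 : q.val s ≠ 0 := fun e0 => by
    have := q.val_injective hs4 (b := 0) (by norm_num) (e0.trans (by rfl))
    omega
  obtain ⟨hu1, hu2⟩ := q.models_toSL g u
  obtain ⟨hv1, hv2⟩ := q.models_toSL g v
  have key : q.vec (act g v + 1) = q.val s • q.vec (act g u + 1) := by
    rw [← hv2, ← hu2, ← Matrix.mulVec_smul, ← q.vec_smulC hs4, e]
  exact (q.line_of_smul (u := ⟨_, hu1⟩) (v := ⟨_, hv1⟩) hs0 key).symm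

end Four

end CfsgLib.SchurMult.PSLThreeFour
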