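import Cfsg.Agent.Lib.SchurMult.PSLThreeFour.Linear

/-!
The cover maps onto `PSL₃(4)` with kernel the powers of the central element.
-/

set_option autoImplicit false
set_option linter.unusedSectionVars false
set_option linter.style.haveILetI false
set_option maxRecDepth 100000

namespace CfsgLib.SchurMult.PSLThreeFour

open Matrix

attribute [local irreducible] el tables lineP R Four.toSL mats

universe u

variable {F : Type u} [Field F] [Fintype F]

theorem chain_facts : ∀ k < 4,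
    (∀ i ∈ R k, tables.img i (base k) < 63 ∧ ∀ j < k, lineP (tables.img i (base j)) = lineP (base j)) ∧
      ((R k).map fun i => lineP (tables.img i (base k))).Nodup := by
  have h := chainOK_eq
  simp only [chainOK, List.all_eq_true, List.mem_range, Bool.and_eq_true, Nat.blt_eq, decide_eq_true_eq] at h
  intro k hk
  obtain ⟨h1, h2⟩ := h k hk
  unfold R
  exact ⟨fun i hi => ⟨(h1 i hi).1, fun j hj => Nat.eq_of_beq_eq_true ((h1 i hi).2 j hj)⟩, h2⟩

theorem base_lt : ∀ k < 4, base k < 63 := by decide +kernel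

/-- A base point. -/
def bpt (k : Fin 4) : Fin 63 := ⟨base k, base_lt k k.2⟩

theorem act_rep (i : ℕ) (hi : i < 84) (u : Fin 63) : act (el i) u = tables.img i u := el_apply hi (pnt u)

namespace Four

variable (q : Four F)

theorem toPSL_z : q.toPSL ⟨el 11, named_mem (by norm_num)⟩ = 1 := by
  refine (QuotientGroup.eq_one_iff _).2 (Matrix.SpecialLinearGroup.mem_center_iff.2 ⟨q.val 2, ?_, ?_⟩)
  · obtain ⟨h2, -, -, -⟩ := field_cases q.card q.eq
    rw [Fintype.card_fin]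
    simp [val]
    linear_combination (q.w + 1) * q.eq + q.w * h2
  · rw [q.toSL_named (by norm_num)]
    ext i j
    fin_cases i <;> fin_cases j <;> simp [namedSL, entry, mats, val, Matrix.scalar_apply]

include q in
theorem NF_fix : ∀ n, n ≤ 4 → ∀ g ∈ NF n, ∃ hg : g ∈ Cover, ∀ k : Fin 4, k.1 < 4 - n →
    lineP (act g (bpt k)) = lineP (bpt k)
  | 0, _, g, ⟨m, hm⟩ => by
    subst hm
    refine ⟨pow_mem (named_mem (by norm_num)) m, fun k _ => ?_⟩
    have e : q.toPSL ⟨el 11 ^ m, pow_mem (named_mem (by norm_num)) m⟩ = q.toPSL 1 := by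
      rw [map_one, show (⟨el 11 ^ m, pow_mem (named_mem (by norm_num)) m⟩ : Cover) =
        ⟨el 11, named_mem (by norm_num)⟩ ^ m from rfl, map_pow, q.toPSL_z, one_pow]
    exact q.toPSL_eq_imp e (bpt k)
  | n + 1, hn, g, ⟨i, hi, t, ht, hg⟩ => by
    subst hg
    obtain ⟨htC, hfix⟩ := NF_fix n (by omega) t ht
    have hk : 3 - n < 4 := by omega
    have hiC : el i ∈ Cover := by
      have hle : ∀ k, k < 4 → Gk k ≤ Cover := by
        intro k
        induction k with
        | zero => exact fun _ => le_rfl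
        | succ k ih => exact fun hk => (Gk_mono (by omega)).trans (ih (by omega))
      exact hle _ hk (rep_mem hk hi)
    refine ⟨mul_mem hiC htC, fun k hk' => ?_⟩
    obtain ⟨-, h84⟩ := R_lt _ hk i hi
    have e : act (el i * t) (bpt k) = act (el i) ⟨act t (bpt k), (q.models_toSL ⟨t, htC⟩ (bpt k)).1⟩ := rfl
    rw [e, q.line_congr ⟨el i, hiC⟩ (v := bpt k) (hfix k (by omega)), act_rep i h84]
    exact ((chain_facts _ hk).1 i hi).2 k (by omega)

theorem NF_toPSL_inj : ∀ n, n ≤ 4 → ∀ {i i' : ℕ} {t t' : Equiv.Perm (Fin 543)}, i ∈ R (4 - n) → i' ∈ R (4 - n) →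
    t ∈ NF (n - 1) → t' ∈ NF (n - 1) → 1 ≤ n → ∀ (hg : el i * t ∈ Cover) (hg' : el i' * t' ∈ Cover),
      q.toPSL ⟨_, hg⟩ = q.toPSL ⟨_, hg'⟩ → i = i' := by
  intro n hn i i' t t' hi hi' ht ht' h1 hg hg' e
  have hk : 4 - n < 4 := by omega
  set b := bpt ⟨4 - n, hk⟩ with hb
  obtain ⟨htC, hfix⟩ := q.NF_fix (n - 1) (by omega) t ht
  obtain ⟨htC', hfix'⟩ := q.NF_fix (n - 1) (by omega) t' ht'
  have key : ∀ {i : ℕ} {t : Equiv.Perm (Fin 543)}, i ∈ R (4 - n) → t ∈ Cover → el i * t ∈ Cover →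
      lineP (act t b) = lineP b → lineP (act (el i * t) b) = lineP (tables.img i (base (4 - n))) := by
    intro i t hi htC hg hfix
    obtain ⟨-, h84⟩ := R_lt _ hk i hi
    have hiC : el i ∈ Cover := by simpa using mul_mem hg (inv_mem htC)
    have e : act (el i * t) b = act (el i) ⟨act t b, (q.models_toSL ⟨t, htC⟩ b).1⟩ := rfl
    rw [e, q.line_congr ⟨el i, hiC⟩ (v := b) hfix, act_rep i h84]
    rfl
  have := q.toPSL_eq_imp e b
  rw [key hi htC hg (hfix _ (by simp; omega)), key hi' htC' hg' (hfix' _ (by simp; omega))] at this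
  exact List.inj_on_of_nodup_map (chain_facts _ hk).2 hi hi' this

theorem NF_inj : ∀ n, n ≤ 4 → ∀ g ∈ NF n, ∀ g' ∈ NF n, ∀ (hg : g ∈ Cover) (hg' : g' ∈ Cover),
    q.toPSL ⟨g, hg⟩ = q.toPSL ⟨g', hg'⟩ → ∃ m : ℕ, g' = g * el 11 ^ m
  | 0, _, g, ⟨m, hm⟩, g', ⟨m', hm'⟩, _, _, _ => by
    subst hm hm'
    obtain ⟨c, hc⟩ : ∃ c, m ≤ m' + 12 * c := ⟨m, by omega⟩
    refine ⟨m' + 12 * c - m, ?_⟩
    rw [← pow_add, show m + (m' + 12 * c - m) = m' + 12 * c by omega, pow_add, pow_mul, z_pow_twelve, one_pow,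
      mul_one]
  | n + 1, hn, g, ⟨i, hi, t, ht, hgd⟩, g', ⟨i', hi', t', ht', hgd'⟩, hg, hg', e => by
    subst hgd hgd'
    have hii : i = i' := q.NF_toPSL_inj (n + 1) hn (by simpa [show 4 - (n + 1) = 3 - n by omega] using hi)
      (by simpa [show 4 - (n + 1) = 3 - n by omega] using hi') ht ht' (by omega) hg hg' e
    subst hii
    obtain ⟨htC, -⟩ := q.NF_fix n (by omega) t ht
    obtain ⟨htC', -⟩ := q.NF_fix n (by omega) t' ht'
    have hiC : el i ∈ Cover := by simpa using mul_mem hg (inv_mem htC)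
    have e' : q.toPSL ⟨t, htC⟩ = q.toPSL ⟨t', htC'⟩ := by
      have h1 : q.toPSL ⟨el i * t, hg⟩ = q.toPSL ⟨el i, hiC⟩ * q.toPSL ⟨t, htC⟩ := map_mul q.toPSL ⟨el i, hiC⟩ ⟨t, htC⟩
      have h2 : q.toPSL ⟨el i * t', hg'⟩ = q.toPSL ⟨el i, hiC⟩ * q.toPSL ⟨t', htC'⟩ :=
        map_mul q.toPSL ⟨el i, hiC⟩ ⟨t', htC'⟩
      rw [h1, h2] at e
      exact mul_left_cancel e
    obtain ⟨m, hm⟩ := NF_inj n (by omega) t ht t' ht' htC htC' e'
    exact ⟨m, by rw [hm, mul_assoc]⟩

theorem ker_toPSL {g : Cover} (hg : q.toPSL g = 1) : ∃ m : ℕ, (g : Equiv.Perm (Fin 543)) = el 11 ^ m := by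
  obtain ⟨m, hm⟩ := q.NF_inj 4 le_rfl 1 (mem_NF (one_mem _)) g (mem_NF g.2) (one_mem _) g.2
    (by rw [show (⟨1, one_mem _⟩ : Cover) = 1 from rfl, map_one]; exact hg.symm)
  exact ⟨m, by rw [hm, one_mul]⟩

theorem ker_le_center : q.toPSL.ker ≤ Subgroup.center Cover := by
  intro g hg
  obtain ⟨m, hm⟩ := q.ker_toPSL hg
  refine Subgroup.mem_center_iff.2 fun h => Subtype.ext ?_
  show (h : Equiv.Perm (Fin 543)) * g = g * h
  rw [hm]
  exact ((z_central h.2).pow_left m).eq.symm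

theorem reps_lengths : (R 0).length = 21 ∧ (R 1).length = 20 ∧ (R 2).length = 16 ∧ (R 3).length = 3 ∧
    ∀ k < 4, (R k).Nodup := by decide +kernel

theorem surjective_toPSL : Function.Surjective q.toPSL := by
  classical
  have h1 : ∀ k, k < 4 → Gk k ≤ Cover := by
    intro k
    induction k with
    | zero => exact fun _ => le_rfl
    | succ k ih => exact fun hk => (Gk_mono (by omega)).trans (ih (by omega))
  let T := {i // i ∈ R 0} × {i // i ∈ R 1} × {i // i ∈ R 2} × {i // i ∈ R 3}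
  let e : T → Cover := fun p => ⟨el p.1.1, h1 0 (by norm_num) (rep_mem (by norm_num) p.1.2)⟩ *
    (⟨el p.2.1.1, h1 1 (by norm_num) (rep_mem (by norm_num) p.2.1.2)⟩ *
    (⟨el p.2.2.1.1, h1 2 (by norm_num) (rep_mem (by norm_num) p.2.2.1.2)⟩ *
    ⟨el p.2.2.2.1, h1 3 (by norm_num) (rep_mem (by norm_num) p.2.2.2.2)⟩))
  have hinj : Function.Injective (q.toPSL ∘ e) := by
    rintro ⟨a, b, c, d⟩ ⟨a', b', c', d'⟩ he
    have n0 : (1 : Equiv.Perm (Fin 543)) ∈ NF 0 := ⟨0, by simp⟩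
    have n1 : ∀ d : {i // i ∈ R 3}, el d.1 ∈ NF 1 := fun d => ⟨d.1, d.2, 1, n0, (mul_one _).symm⟩
    have n2 : ∀ (c : {i // i ∈ R 2}) (d : {i // i ∈ R 3}), el c.1 * el d.1 ∈ NF 2 :=
      fun c d => ⟨c.1, c.2, _, n1 d, rfl⟩
    have n3 : ∀ (b : {i // i ∈ R 1}) (c : {i // i ∈ R 2}) (d : {i // i ∈ R 3}),
        el b.1 * (el c.1 * el d.1) ∈ NF 3 := fun b c d => ⟨b.1, b.2, _, n2 c d, rfl⟩
    have ea : a.1 = a'.1 := q.NF_toPSL_inj 4 le_rfl a.2 a'.2 (n3 b c d) (n3 b' c' d') (by norm_num)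
      (e (a, b, c, d)).2 (e (a', b', c', d')).2 he
    obtain rfl := Subtype.ext ea
    simp only [Function.comp, e, map_mul] at he
    replace he := mul_left_cancel he
    simp only [← map_mul] at he
    have eb : b.1 = b'.1 := q.NF_toPSL_inj 3 (by norm_num) b.2 b'.2 (n2 c d) (n2 c' d') (by norm_num) _ _ he
    obtain rfl := Subtype.ext eb
    simp only [map_mul] at he
    replace he := mul_left_cancel he
    simp only [← map_mul] at he
    have ec : c.1 = c'.1 := q.NF_toPSL_inj 2 (by norm_num) c.2 c'.2 (n1 d) (n1 d') (by norm_num) _ _ he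
    obtain rfl := Subtype.ext ec
    simp only [map_mul] at he
    replace he := mul_left_cancel he
    obtain ⟨-, h84⟩ := R_lt 3 (by norm_num) d.1 d.2
    obtain ⟨-, h84'⟩ := R_lt 3 (by norm_num) d'.1 d'.2
    have hed := q.toPSL_eq_imp he (bpt 3)
    rw [act_rep _ h84, act_rep _ h84'] at hed
    obtain rfl := Subtype.ext (List.inj_on_of_nodup_map (chain_facts 3 (by norm_num)).2 d.2 d'.2 hed)
    rfl
  obtain ⟨l0, l1, l2, l3, hnd⟩ := reps_lengths
  have hcard : Nat.card T = 20160 := by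
    have : ∀ k < 4, Nat.card {i // i ∈ R k} = (R k).length := fun k hk => by
      rw [Nat.card_eq_fintype_card, Fintype.card_of_subtype (R k).toFinset (fun x => List.mem_toFinset),
        List.toFinset_card_of_nodup (hnd k hk)]
    rw [Nat.card_prod, Nat.card_prod, Nat.card_prod, this 0 (by norm_num), this 1 (by norm_num),
      this 2 (by norm_num), this 3 (by norm_num), l0, l1, l2, l3]
  have hb : Function.Bijective (q.toPSL ∘ e) := (Nat.bijective_iff_injective_and_card _).2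
    ⟨hinj, by rw [hcard, CfsgLib.InvChar.SymThree.card_PSL_three_four q.card]⟩
  exact hb.2.of_comp

end Four

end CfsgLib.SchurMult.PSLThreeFour
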